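import Cfsg.Agent.H9.S4.B

/-! Group-theoretic lemmas: dihedral pairs, Thompson transfer, strong embedding. -/

set_option autoImplicit false
set_option linter.unusedSectionVars false
set_option linter.unusedVariables false
set_option linter.unusedSimpArgs false

namespace Cfsg.Agent.H9.C2

open Subgroup H8.M3

variable {Γ : Type*} [Group Γ] [Finite Γ]

theorem dih {R : Type*} [Monoid R] (H : Subgroup Γ) (ψ : Γ → R) (ψ1 : ψ 1 = 1)
    (ψm : ∀ a ∈ H, ∀ b ∈ H, ψ (a * b) = ψ a * ψ b) {s t : Γ} (hs : s ∈ H) (ht : t ∈ H)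
    (h1 : ψ s * ψ s = 1) (h2 : ψ t * ψ t = 1)
    (h3 : ∀ z ∈ H, ψ z * ψ z = 1 → ψ z * ψ s = ψ s * ψ z → ψ z * ψ t = ψ t * ψ z → ψ z = 1) :
    ∃ w ∈ H, ψ w * ψ s = ψ t * ψ w ∧ ψ w * ψ w = 1 := by
  let φ : H →* R := ⟨⟨fun g => ψ g, ψ1⟩, fun a b => ψm _ a.2 _ b.2⟩
  let f := φ.toHomUnits.rangeRestrict
  have : Finite φ.toHomUnits.range := Finite.of_surjective f φ.toHomUnits.rangeRestrict_surjective
  let v : φ.toHomUnits.range →* R := (Units.coeHom R).comp φ.toHomUnits.range.subtype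
  have vi : Function.Injective v := Units.val_injective.comp Subtype.val_injective
  have vf : ∀ g : H, v (f g) = ψ g := fun g => rfl
  rcases Sp.dihedral (M := ⊤) (i := f ⟨s, hs⟩) (j := f ⟨t, ht⟩) (vi (by simp [vf, h1]))
    (vi (by simp [vf, h2])) trivial trivial with ⟨w, -, a, b⟩ | ⟨z, -, a, b, c, d, -⟩
  · obtain ⟨w, rfl⟩ : ∃ x, f x = w := φ.toHomUnits.rangeRestrict_surjective w
    rw [mul_inv_eq_iff_eq_mul] at b
    exact ⟨w, w.2, by simpa [vf] using congrArg v b, by simpa [vf] using congrArg v a⟩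
  · obtain ⟨z, rfl⟩ : ∃ x, f x = z := φ.toHomUnits.rangeRestrict_surjective z
    rw [mul_inv_eq_iff_eq_mul] at c d
    exact absurd (vi (by
      simpa [vf] using h3 z z.2 (by simpa [vf] using congrArg v b) (by simpa [vf] using congrArg v c)
        (by simpa [vf] using congrArg v d))) a

theorem conj_sub {T M R : Subgroup Γ} (hTM : T ≤ M) (hT : Odd T.index) (hR : IsPGroup 2 R)
    (hRM : R ≤ M) : ∃ m ∈ M, ∀ r ∈ R, m⁻¹ * r * m ∈ T := by
  have hP : IsPGroup 2 (R.subgroupOf M) := hR.comap_subtype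
  have hodd : ¬ 2 ∣ Nat.card (M ⧸ T.subgroupOf M) := fun h =>
    (Nat.not_even_iff_odd.2 hT) (even_iff_two_dvd.2 (h.trans (relIndex_dvd_index_of_le hTM)))
  obtain ⟨q, hq⟩ := hP.nonempty_fixed_point_of_prime_not_dvd_card (M ⧸ T.subgroupOf M) hodd
  induction q using QuotientGroup.induction_on with | H m => ?_
  refine ⟨m, m.2, fun r hr => ?_⟩
  have : (⟨r, hRM hr⟩ : M) • (m : M ⧸ T.subgroupOf M) = m := hq ⟨⟨r, hRM hr⟩, hr⟩
  rw [MulAction.Quotient.smul_coe, smul_eq_mul, eq_comm, QuotientGroup.eq, ← mul_assoc] at this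
  exact this

/-- a `2`-subgroup of odd index is a maximal `2`-subgroup -/
theorem le_of_two {S R : Subgroup Γ} (hS : Odd S.index) (hR : IsPGroup 2 R) (h : S ≤ R) : R ≤ S := by
  obtain ⟨n, hn⟩ := IsPGroup.iff_card.1 hR
  have h1 : S.relIndex R ∣ 2 ^ n := hn ▸ relIndex_dvd_card S R
  have h2 : S.relIndex R ∣ S.index := relIndex_dvd_index_of_le h
  exact relIndex_eq_one.1 (Nat.eq_one_of_dvd_coprimes
    (Nat.Coprime.pow_left n (Nat.coprime_two_left.2 hS)) h1 h2)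

theorem se_crit {S M : Subgroup Γ} (hS : IsPGroup 2 S) (ho : Odd S.index) {z : Γ} (hz : z ∈ S)
    (z1 : z ≠ 1) (z2 : z * z = 1) (zc : ∀ s ∈ S, s * z = z * s) (hSM : S ≤ M)
    (hN : ∀ g, (∀ s ∈ S, g * s * g⁻¹ ∈ S) → g ∈ M)
    (hC : ∀ i ∈ S, i * i = 1 → i ≠ 1 → ∀ g, g * i = i * g → g ∈ M) : S4.SE M := by
  have hC' : ∀ i ∈ M, i * i = 1 → i ≠ 1 → ∀ g, g * i = i * g → g ∈ M := fun i hi i2 i1 g hg => by
    obtain ⟨m, hm, h⟩ := S4.conj_into hSM ho hi i2
    have := hC _ h (by rw [← inv_inv m, inv_inv m⁻¹, conj_mul, i2]; simp)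
      (by simpa using conj_ne_one (g := m⁻¹) i1) (m⁻¹ * g * m)
      (by simp [mul_assoc]; rw [← mul_assoc, hg, mul_assoc])
    simpa [mul_assoc] using M.mul_mem (M.mul_mem hm this) (M.inv_mem hm)
  intro g i hi i2 i1 hg
  obtain ⟨m, hm, h⟩ := S4.conj_into hSM ho hg (by rw [conj_mul, i2]; simp)
  set u := g⁻¹ * m with hu
  have h1 : u * z * u⁻¹ ∈ M := hC' i hi i2 i1 _ (by
    have := zc _ h
    calc u * z * u⁻¹ * i = u * (z * (m⁻¹ * (g * i * g⁻¹) * m)) * u⁻¹ := by rw [hu]; group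
      _ = i * (u * z * u⁻¹) := by rw [← this, hu]; group)
  let S' := S.map (MulAut.conj u).toMonoidHom
  obtain ⟨n, hn, h2⟩ := conj_sub hSM ho (R := S') (hS.map _) (by
    rintro _ ⟨s, hs, rfl⟩
    refine hC' _ h1 (by rw [conj_mul, z2]; simp) (conj_ne_one z1) _ ?_
    change u * s * u⁻¹ * _ = _ * (u * s * u⁻¹)
    rw [conj_mul, conj_mul, zc s hs])
  have h3 := hN (n⁻¹ * u) fun s hs => by
    have := h2 _ ⟨s, hs, rfl⟩
    simpa [mul_assoc] using this
  have := M.mul_mem (M.mul_mem hn h3) (M.inv_mem hm)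
  simpa [hu, mul_assoc] using this

/-- Thompson's transfer lemma, extremal form -/
theorem thompson (hG : SN Γ) {S S0 R : Subgroup Γ} (ho : Odd S.index) (h0 : S0 ≤ S)
    (h2 : S0.relIndex S = 2) {t : Γ} (ht : t * t = 1) (hR : IsPGroup 2 R)
    (hc : ∀ r ∈ R, r * t = t * r) : ∃ g, g⁻¹ * t * g ∈ S0 ∧ ∀ r ∈ R, g⁻¹ * r * g ∈ S := by
  classical
  have hn : ∀ s ∈ S, ∀ x ∈ S0, s⁻¹ * x * s ∈ S0 := fun s hs x hx => by
    have : (S0.subgroupOf S).Normal := normal_of_index_eq_two h2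
    exact this.conj_mem' ⟨x, h0 hx⟩ hx ⟨s, hs⟩
  have fx : ∀ (K : Subgroup Γ) (x g : Γ), x • (g : Γ ⧸ K) = g ↔ g⁻¹ * x * g ∈ K := fun K x g => by
    rw [MulAction.Quotient.smul_coe, smul_eq_mul, eq_comm, QuotientGroup.eq, mul_assoc]
  let X := {q : Γ ⧸ S | ∃ g : Γ, (g : Γ ⧸ S) = q ∧ g⁻¹ * t * g ∈ S0}
  let Y := Function.fixedPoints (MulAction.toPermHom Γ (Γ ⧸ S0) t)
  have hi : S0.index = 2 * S.index := by rw [← relIndex_mul_index h0, h2]
  -- `|Y| = 2 |X|`
  have hY : Nat.card Y = 2 * Nat.card X := by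
    let π : Γ ⧸ S0 → Γ ⧸ S := quotientMapOfLE h0
    have hπ : ∀ g : Γ, π g = g := fun g => rfl
    have e : Y = π ⁻¹' X := by
      ext q
      induction q using QuotientGroup.induction_on with | H g => ?_
      refine ⟨fun h => ⟨g, rfl, (fx _ _ _).1 h⟩, fun ⟨g', h1, h3⟩ => (fx _ _ _).2 ?_⟩
      have := hn _ (QuotientGroup.eq.1 h1) _ h3
      simpa [mul_assoc] using this
    have fib : ∀ q, Nat.card (π ⁻¹' {q}) = 2 := fun q => by
      induction q using QuotientGroup.induction_on with | H g => ?_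
      rw [← h2, relIndex, index]
      refine (Nat.card_congr (Equiv.ofBijective (fun c : S ⧸ S0.subgroupOf S =>
        (⟨((g * c.out : Γ) : Γ ⧸ S0), by simp [hπ, QuotientGroup.eq]⟩ : π ⁻¹' {(g : Γ ⧸ S)}))
          ⟨fun a b h => ?_, fun ⟨q, hq⟩ => ?_⟩)).symm
      · have := QuotientGroup.eq.1 (congrArg Subtype.val h)
        rw [← a.out_eq, ← b.out_eq]
        exact QuotientGroup.eq.2 (by simpa [mem_subgroupOf, mul_assoc] using this)
      · induction q using QuotientGroup.induction_on with | H x => ?_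
        have hx : g⁻¹ * x ∈ S := QuotientGroup.eq.1 (Set.mem_singleton_iff.1 hq).symm
        refine ⟨(⟨_, hx⟩ : S), Subtype.ext (QuotientGroup.eq.2 ?_)⟩
        have := QuotientGroup.eq.1 (QuotientGroup.out_eq' ((⟨_, hx⟩ : S) : S ⧸ S0.subgroupOf S))
        simpa [mem_subgroupOf, mul_assoc] using this
    have : Fintype X := Fintype.ofFinite _
    rw [e, show Nat.card (π ⁻¹' X) = Nat.card (Σ y : X, {x // π x = y}) from Nat.card_congr
      (Equiv.sigmaSubtypeFiberEquivSubtype π (q := (· ∈ X)) fun _ => Iff.rfl).symm, Nat.card_sigma]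
    simp [show ∀ q : X, Nat.card {a // π a = q} = 2 from fun q => fib q, mul_comm]
  have hX : ¬ 2 ∣ Nat.card X := fun h => by
    have : Fintype (Γ ⧸ S0) := Fintype.ofFinite _
    have h1 := hG.hom_eq_one (Equiv.Perm.sign.comp (MulAction.toPermHom Γ (Γ ⧸ S0))) t
    have h3 : (MulAction.toPermHom Γ (Γ ⧸ S0) t) ^ 2 = 1 := by rw [← map_pow, sq, ht, map_one]
    have hle : Nat.card Y ≤ S0.index := Finite.card_subtype_le _
    rw [MonoidHom.comp_apply, Equiv.Perm.sign_of_pow_two_eq_one h3, ← Nat.card_eq_fintype_card,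
      ← Nat.card_eq_fintype_card, ← index_eq_card] at h1
    obtain ⟨a, ha⟩ := ho
    obtain ⟨b, hb⟩ := h
    rw [Odd.neg_one_pow (Nat.odd_iff.2 (by
      change (S0.index - Nat.card Y) / 2 % 2 = 1
      omega))] at h1
    exact absurd h1 (by decide)
  let _ : MulAction R X :=
    { smul r q := ⟨r.1 • q.1, by
        obtain ⟨g, h1, h3⟩ := q.2
        refine ⟨r * g, by rw [← h1]; rfl, ?_⟩
        rwa [show (r.1 * g)⁻¹ * t * (r * g) = g⁻¹ * (r.1⁻¹ * (t * r)) * g by group, ← hc r r.2,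
          inv_mul_cancel_left]⟩
      one_smul q := Subtype.ext (one_smul Γ q.1)
      mul_smul a b q := Subtype.ext (mul_smul a.1 b.1 q.1) }
  obtain ⟨⟨q, g, rfl, hg⟩, hq⟩ := hR.nonempty_fixed_point_of_prime_not_dvd_card X hX
  exact ⟨g, hg, fun r hr => (fx _ _ _).1 (congrArg Subtype.val (hq ⟨r, hr⟩))⟩

theorem relIndex_two {S S0 : Subgroup Γ} {e : Γ} (he : e ∈ S) (he0 : e ∉ S0)
    (h : ∀ s ∈ S, s ∉ S0 → s * e ∈ S0) : S0.relIndex S = 2 :=
  index_eq_two_iff.2 ⟨⟨e, he⟩, fun b => by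
    by_cases hb : b.1 ∈ S0
    · exact Or.inr ⟨hb, fun h' => he0 (by simpa using S0.mul_mem (S0.inv_mem hb) h')⟩
    · exact Or.inl ⟨h b b.2 hb, hb⟩⟩

/-- a group whose order is not divisible by four has a normal `2`-complement -/
theorem odd_sub (H : Subgroup Γ) (h : ¬ 4 ∣ Nat.card H) :
    ∃ K ≤ H, Odd (Nat.card K) ∧ ∀ g ∈ H, Odd (orderOf g) → g ∈ K := by
  classical
  rcases Nat.even_or_odd (Nat.card H) with he | he
  swap
  · exact ⟨H, le_rfl, he, fun g hg _ => hg⟩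
  have : Fintype H := Fintype.ofFinite _
  let σ := Equiv.Perm.sign.comp (MulAction.toPermHom H H)
  obtain ⟨x, hx⟩ := exists_prime_orderOf_dvd_card' (G := H) 2 (even_iff_two_dvd.1 he)
  have h1 : σ x = -1 := by
    have h3 : (MulAction.toPermHom H H x) ^ 2 = 1 := by rw [← map_pow, ← hx, pow_orderOf_eq_one, map_one]
    have h4 : IsEmpty (Function.fixedPoints (MulAction.toPermHom H H x)) := ⟨fun ⟨a, ha⟩ => by
      have : x * a = a := ha
      rw [mul_eq_right.1 this, orderOf_one] at hx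
      omega⟩
    rw [MonoidHom.comp_apply, Equiv.Perm.sign_of_pow_two_eq_one h3, @Fintype.card_eq_zero _ _ h4,
      Nat.sub_zero, ← Nat.card_eq_fintype_card]
    obtain ⟨a, ha⟩ := he
    exact Odd.neg_one_pow (Nat.odd_iff.2 (by omega))
  have h2 : σ.ker.index = 2 := by
    rw [index_ker, MonoidHom.range_eq_top.2 fun u => by
      rcases Int.units_eq_one_or u with rfl | rfl
      exacts [⟨1, map_one _⟩, ⟨x, h1⟩]]
    simp
  refine ⟨σ.ker.map H.subtype, map_subtype_le _, ?_, fun g hg ho => ⟨⟨g, hg⟩, ?_, rfl⟩⟩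
  · rw [card_map_of_injective H.subtype_injective]
    have := σ.ker.index_mul_card
    rw [h2] at this
    exact Nat.odd_iff.2 (by omega)
  · have h3 : σ ⟨g, hg⟩ ^ orderOf g = 1 := by
      rw [← map_pow, ← orderOf_mk g hg, pow_orderOf_eq_one, map_one]
    rcases Int.units_eq_one_or (σ ⟨g, hg⟩) with e | e
    · exact e
    · rw [e, ho.neg_one_pow] at h3
      exact absurd h3 (by decide)

/-- a nonempty invariant set generates -/
theorem gen (hG : SN Γ) (p : Γ → Prop) (hp : ∀ g x, p x → p (g * x * g⁻¹)) {z : Γ} (hz : p z)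
    (z1 : z ≠ 1) {H : Subgroup Γ} (hH : ∀ x, p x → x ∈ H) (g : Γ) : g ∈ H := by
  have : (closure {x | p x}).Normal := ⟨fun n hn g => by
    induction hn using closure_induction with
    | mem x hx => exact subset_closure (hp g x hx)
    | one => simp
    | mul a b _ _ ha hb => rw [← conj_mul]; exact mul_mem ha hb
    | inv a _ ha => rw [← conj_inv]; exact inv_mem ha⟩
  rcases hG.normal_cases _ this with e | e
  · exact absurd (mem_bot.1 (e ▸ subset_closure hz)) z1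
  · exact (closure_le H).2 hH (e ▸ mem_top g)

theorem eq_one_of_odd {x : Γ} (ho : Odd (orderOf x)) (h : x * x = 1) : x = 1 :=
  orderOf_eq_one_iff.1 (Nat.eq_one_of_dvd_coprimes (Nat.coprime_two_left.2 ho)
    (orderOf_dvd_of_pow_eq_one (by rw [sq, h])) dvd_rfl)

/-- odd part -/
theorem exists_odd_pow (g : Γ) : ∃ a n : ℕ, Odd n ∧ orderOf g = 2 ^ a * n ∧ Odd (orderOf (g ^ 2 ^ a)) := by
  obtain ⟨a, n, hn, e⟩ := Nat.exists_eq_two_pow_mul_odd (orderOf_pos g).ne'
  refine ⟨a, n, hn, e, hn.of_dvd_nat (orderOf_dvd_of_pow_eq_one ?_)⟩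
  rw [← pow_mul, ← e, pow_orderOf_eq_one]

end Cfsg.Agent.H9.C2
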