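import Cfsg.Agent.H9.S4.B
import Cfsg.Agent.H1.PermMod

/-! Simple subgroups of `SL₄(k)`, `k` of characteristic two, without transvections: the set-up. -/

set_option autoImplicit false
set_option linter.unusedSectionVars false
set_option linter.unusedSimpArgs false
set_option linter.unusedVariables false

namespace Cfsg.Agent.H9.C2

open Matrix Subgroup H8.M3

abbrev M4 (k : Type*) := Matrix (Fin 4) (Fin 4) k
abbrev V4 (k : Type*) := Fin 4 → k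

variable {k : Type*} [Field k]

section mat
variable {a0 a1 a2 a3 b0 b1 b2 b3 c0 c1 c2 c3 d0 d1 d2 d3 : k}
  {a0' a1' a2' a3' b0' b1' b2' b3' c0' c1' c2' c3' d0' d1' d2' d3' : k}

/-- an explicit matrix -/
def mx (a0 a1 a2 a3 b0 b1 b2 b3 c0 c1 c2 c3 d0 d1 d2 d3 : k) : M4 k :=
  !![a0, a1, a2, a3; b0, b1, b2, b3; c0, c1, c2, c3; d0, d1, d2, d3]

theorem eta (A : M4 k) : A = mx (A 0 0) (A 0 1) (A 0 2) (A 0 3) (A 1 0) (A 1 1) (A 1 2) (A 1 3)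
    (A 2 0) (A 2 1) (A 2 2) (A 2 3) (A 3 0) (A 3 1) (A 3 2) (A 3 3) := by
  ext i j; fin_cases i <;> fin_cases j <;> rfl

theorem ex (A : M4 k) : ∃ a0 a1 a2 a3 b0 b1 b2 b3 c0 c1 c2 c3 d0 d1 d2 d3,
    A = mx a0 a1 a2 a3 b0 b1 b2 b3 c0 c1 c2 c3 d0 d1 d2 d3 :=
  ⟨_, _, _, _, _, _, _, _, _, _, _, _, _, _, _, _, eta A⟩

theorem mx_inj : mx a0 a1 a2 a3 b0 b1 b2 b3 c0 c1 c2 c3 d0 d1 d2 d3 =
    mx a0' a1' a2' a3' b0' b1' b2' b3' c0' c1' c2' c3' d0' d1' d2' d3' ↔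
    a0 = a0' ∧ a1 = a1' ∧ a2 = a2' ∧ a3 = a3' ∧ b0 = b0' ∧ b1 = b1' ∧ b2 = b2' ∧ b3 = b3' ∧
    c0 = c0' ∧ c1 = c1' ∧ c2 = c2' ∧ c3 = c3' ∧ d0 = d0' ∧ d1 = d1' ∧ d2 = d2' ∧ d3 = d3' := by
  constructor
  · intro h
    have e := fun i j => congrFun (congrFun h i) j
    exact ⟨e 0 0, e 0 1, e 0 2, e 0 3, e 1 0, e 1 1, e 1 2, e 1 3, e 2 0, e 2 1, e 2 2, e 2 3,
      e 3 0, e 3 1, e 3 2, e 3 3⟩
  · rintro ⟨rfl, rfl, rfl, rfl, rfl, rfl, rfl, rfl, rfl, rfl, rfl, rfl, rfl, rfl, rfl, rfl⟩; rfl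

theorem mx_mul : mx a0 a1 a2 a3 b0 b1 b2 b3 c0 c1 c2 c3 d0 d1 d2 d3 *
    mx a0' a1' a2' a3' b0' b1' b2' b3' c0' c1' c2' c3' d0' d1' d2' d3' =
    mx (a0 * a0' + a1 * b0' + a2 * c0' + a3 * d0') (a0 * a1' + a1 * b1' + a2 * c1' + a3 * d1')
      (a0 * a2' + a1 * b2' + a2 * c2' + a3 * d2') (a0 * a3' + a1 * b3' + a2 * c3' + a3 * d3')
      (b0 * a0' + b1 * b0' + b2 * c0' + b3 * d0') (b0 * a1' + b1 * b1' + b2 * c1' + b3 * d1')
      (b0 * a2' + b1 * b2' + b2 * c2' + b3 * d2') (b0 * a3' + b1 * b3' + b2 * c3' + b3 * d3')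
      (c0 * a0' + c1 * b0' + c2 * c0' + c3 * d0') (c0 * a1' + c1 * b1' + c2 * c1' + c3 * d1')
      (c0 * a2' + c1 * b2' + c2 * c2' + c3 * d2') (c0 * a3' + c1 * b3' + c2 * c3' + c3 * d3')
      (d0 * a0' + d1 * b0' + d2 * c0' + d3 * d0') (d0 * a1' + d1 * b1' + d2 * c1' + d3 * d1')
      (d0 * a2' + d1 * b2' + d2 * c2' + d3 * d2') (d0 * a3' + d1 * b3' + d2 * c3' + d3 * d3') := by
  ext i j; fin_cases i <;> fin_cases j <;> simp [mx, mul_apply, Fin.sum_univ_four]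

theorem mx_add : mx a0 a1 a2 a3 b0 b1 b2 b3 c0 c1 c2 c3 d0 d1 d2 d3 +
    mx a0' a1' a2' a3' b0' b1' b2' b3' c0' c1' c2' c3' d0' d1' d2' d3' =
    mx (a0 + a0') (a1 + a1') (a2 + a2') (a3 + a3') (b0 + b0') (b1 + b1') (b2 + b2') (b3 + b3')
      (c0 + c0') (c1 + c1') (c2 + c2') (c3 + c3') (d0 + d0') (d1 + d1') (d2 + d2') (d3 + d3') := by
  ext i j; fin_cases i <;> fin_cases j <;> rfl

theorem mx_smul (s : k) : s • mx a0 a1 a2 a3 b0 b1 b2 b3 c0 c1 c2 c3 d0 d1 d2 d3 =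
    mx (s * a0) (s * a1) (s * a2) (s * a3) (s * b0) (s * b1) (s * b2) (s * b3)
      (s * c0) (s * c1) (s * c2) (s * c3) (s * d0) (s * d1) (s * d2) (s * d3) := by
  ext i j; fin_cases i <;> fin_cases j <;> rfl

theorem mx_one : (1 : M4 k) = mx 1 0 0 0 0 1 0 0 0 0 1 0 0 0 0 1 := by
  ext i j; fin_cases i <;> fin_cases j <;> rfl

theorem mx_zero : (0 : M4 k) = mx 0 0 0 0 0 0 0 0 0 0 0 0 0 0 0 0 := by
  ext i j; fin_cases i <;> fin_cases j <;> rfl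

theorem mx_T : (mx a0 a1 a2 a3 b0 b1 b2 b3 c0 c1 c2 c3 d0 d1 d2 d3)ᵀ =
    mx a0 b0 c0 d0 a1 b1 c1 d1 a2 b2 c2 d2 a3 b3 c3 d3 := by
  ext i j; fin_cases i <;> fin_cases j <;> rfl

theorem mx_vv : vecMulVec ![a0, a1, a2, a3] ![b0, b1, b2, b3] =
    mx (a0 * b0) (a0 * b1) (a0 * b2) (a0 * b3) (a1 * b0) (a1 * b1) (a1 * b2) (a1 * b3)
      (a2 * b0) (a2 * b1) (a2 * b2) (a2 * b3) (a3 * b0) (a3 * b1) (a3 * b2) (a3 * b3) := by
  ext i j; fin_cases i <;> fin_cases j <;> rfl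

theorem mx_trace : (mx a0 a1 a2 a3 b0 b1 b2 b3 c0 c1 c2 c3 d0 d1 d2 d3).trace = a0 + b1 + c2 + d3 := by
  simp [trace, mx, Fin.sum_univ_four]

theorem mx_det : (mx a0 a1 a2 a3 b0 b1 b2 b3 c0 c1 c2 c3 d0 d1 d2 d3).det =
    (a0 * b1 - a1 * b0) * (c2 * d3 - c3 * d2) - (a0 * b2 - a2 * b0) * (c1 * d3 - c3 * d1) +
    (a0 * b3 - a3 * b0) * (c1 * d2 - c2 * d1) + (a1 * b2 - a2 * b1) * (c0 * d3 - c3 * d0) -
    (a1 * b3 - a3 * b1) * (c0 * d2 - c2 * d0) + (a2 * b3 - a3 * b2) * (c0 * d1 - c1 * d0) := by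
  simp [mx, det_succ_row_zero, Fin.sum_univ_succ, Fin.succAbove]; ring

theorem mx_mulVec (v : V4 k) : mx a0 a1 a2 a3 b0 b1 b2 b3 c0 c1 c2 c3 d0 d1 d2 d3 *ᵥ v =
    ![a0 * v 0 + a1 * v 1 + a2 * v 2 + a3 * v 3, b0 * v 0 + b1 * v 1 + b2 * v 2 + b3 * v 3,
      c0 * v 0 + c1 * v 1 + c2 * v 2 + c3 * v 3, d0 * v 0 + d1 * v 1 + d2 * v 2 + d3 * v 3] := by
  ext i; fin_cases i <;> simp [mx, mulVec, dotProduct, Fin.sum_univ_four]

theorem mx00 : mx a0 a1 a2 a3 b0 b1 b2 b3 c0 c1 c2 c3 d0 d1 d2 d3 0 0 = a0 := rfl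
theorem mx01 : mx a0 a1 a2 a3 b0 b1 b2 b3 c0 c1 c2 c3 d0 d1 d2 d3 0 1 = a1 := rfl
theorem mx02 : mx a0 a1 a2 a3 b0 b1 b2 b3 c0 c1 c2 c3 d0 d1 d2 d3 0 2 = a2 := rfl
theorem mx03 : mx a0 a1 a2 a3 b0 b1 b2 b3 c0 c1 c2 c3 d0 d1 d2 d3 0 3 = a3 := rfl
theorem mx10 : mx a0 a1 a2 a3 b0 b1 b2 b3 c0 c1 c2 c3 d0 d1 d2 d3 1 0 = b0 := rfl
theorem mx11 : mx a0 a1 a2 a3 b0 b1 b2 b3 c0 c1 c2 c3 d0 d1 d2 d3 1 1 = b1 := rfl
theorem mx12 : mx a0 a1 a2 a3 b0 b1 b2 b3 c0 c1 c2 c3 d0 d1 d2 d3 1 2 = b2 := rfl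
theorem mx13 : mx a0 a1 a2 a3 b0 b1 b2 b3 c0 c1 c2 c3 d0 d1 d2 d3 1 3 = b3 := rfl
theorem mx20 : mx a0 a1 a2 a3 b0 b1 b2 b3 c0 c1 c2 c3 d0 d1 d2 d3 2 0 = c0 := rfl
theorem mx21 : mx a0 a1 a2 a3 b0 b1 b2 b3 c0 c1 c2 c3 d0 d1 d2 d3 2 1 = c1 := rfl
theorem mx22 : mx a0 a1 a2 a3 b0 b1 b2 b3 c0 c1 c2 c3 d0 d1 d2 d3 2 2 = c2 := rfl
theorem mx23 : mx a0 a1 a2 a3 b0 b1 b2 b3 c0 c1 c2 c3 d0 d1 d2 d3 2 3 = c3 := rfl
theorem mx30 : mx a0 a1 a2 a3 b0 b1 b2 b3 c0 c1 c2 c3 d0 d1 d2 d3 3 0 = d0 := rfl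
theorem mx31 : mx a0 a1 a2 a3 b0 b1 b2 b3 c0 c1 c2 c3 d0 d1 d2 d3 3 1 = d1 := rfl
theorem mx32 : mx a0 a1 a2 a3 b0 b1 b2 b3 c0 c1 c2 c3 d0 d1 d2 d3 3 2 = d2 := rfl
theorem mx33 : mx a0 a1 a2 a3 b0 b1 b2 b3 c0 c1 c2 c3 d0 d1 d2 d3 3 3 = d3 := rfl

end mat

/-- normalise explicit matrix expressions -/
macro "mxs" loc:(Lean.Parser.Tactic.location)? : tactic =>
  `(tactic| simp only [mx_mul, mx_add, mx_smul, mx_one, mx_zero, mx_T, mx_vv, mx_trace, mx_det, mx_inj,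
    mul_zero, zero_mul, add_zero, zero_add, mul_one, one_mul, true_and, and_true, and_self, sub_zero,
    zero_sub, ne_eq,
    mx00, mx01, mx02, mx03, mx10, mx11, mx12, mx13, mx20, mx21, mx22, mx23, mx30, mx31, mx32, mx33] $[$loc]?)

/-- polynomial arithmetic -/
macro "gr" : tactic => `(tactic| (and_intros <;> grind (ematch := 0)))

variable {Γ : Type*} [Group Γ] {α : Γ →* M4 k}

/-- the standing hypotheses -/
structure Good (α : Γ →* M4 k) : Prop where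
  sn : SN Γ
  inj : Function.Injective α
  det : ∀ g, (α g).det = 1
  irr : ∀ W : Submodule k (V4 k), (∀ g, ∀ w ∈ W, α g *ᵥ w ∈ W) → W = ⊥ ∨ W = ⊤
  noTv : ∀ g (a φ : V4 k), α g = 1 + vecMulVec a φ → g = 1

/-- self-dual -/
def SD (α : Γ →* M4 k) : Prop := ∃ B : M4 k, B ≠ 0 ∧ ∀ g, (α g)ᵀ * B * α g = B

theorem mul_inv' (α : Γ →* M4 k) (g : Γ) : α g * α g⁻¹ = 1 := by rw [← map_mul, mul_inv_cancel, map_one]
theorem inv_mul' (α : Γ →* M4 k) (g : Γ) : α g⁻¹ * α g = 1 := by rw [← map_mul, inv_mul_cancel, map_one]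

/-- change of basis -/
def cj (P : (M4 k)ˣ) (α : Γ →* M4 k) : Γ →* M4 k where
  toFun g := ↑P⁻¹ * α g * P
  map_one' := by simp
  map_mul' a b := by simp [mul_assoc]

theorem cj_ap (P : (M4 k)ˣ) (g : Γ) : cj P α g = ↑P⁻¹ * α g * P := rfl

theorem cj_eq {P : (M4 k)ˣ} {g : Γ} {B : M4 k} (h : α g * P = P * B) : cj P α g = B := by
  rw [cj_ap, mul_assoc, h, Units.inv_mul_cancel_left]

theorem cj_back (P : (M4 k)ˣ) (g : Γ) : α g = P * cj P α g * ↑P⁻¹ := by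
  simp [cj_ap, mul_assoc]

theorem Good.cj (h : Good α) (P : (M4 k)ˣ) : Good (cj P α) where
  sn := h.sn
  inj a b e := h.inj (by rw [cj_back P a, e, ← cj_back])
  det g := by rw [cj_ap, det_units_conj', h.det]
  irr W hW := by
    let e : V4 k ≃ₗ[k] V4 k := toLin'OfInv (M' := P) (M := ↑P⁻¹) P.inv_mul P.mul_inv
    have := h.irr (W.map e.toLinearMap) (by
      rintro g _ ⟨w, hw, rfl⟩
      refine ⟨_, hW g w hw, ?_⟩
      change (P : M4 k) *ᵥ _ = α g *ᵥ (P : M4 k) *ᵥ w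
      simp [cj_ap, ← mul_assoc])
    rwa [Submodule.map_eq_bot_iff, Submodule.map_eq_top_iff] at this
  noTv g a φ e := h.noTv g ((P : M4 k) *ᵥ a) (φ ᵥ* ↑P⁻¹) (by
    rw [cj_back P g, e, mul_add, add_mul, mul_vecMulVec, vecMulVec_mul]; simp)

theorem SD.of_cj {P : (M4 k)ˣ} (h : SD (cj P α)) : SD α := by
  obtain ⟨B, h0, h⟩ := h
  refine ⟨(↑P⁻¹ : M4 k)ᵀ * B * ↑P⁻¹, fun e => h0 ?_, fun g => ?_⟩
  · have := congrArg (fun X => (P : M4 k)ᵀ * X * P) e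
    simpa [mul_assoc, ← mul_assoc (P : M4 k)ᵀ, ← transpose_mul] using this
  · conv_rhs => rw [← h g]
    simp only [cj_ap, transpose_mul, mul_assoc, Units.mul_inv, mul_one]
    rw [← mul_assoc _ (P : M4 k)ᵀ, ← transpose_mul, Units.mul_inv, transpose_one, one_mul]

/-- a unit from an explicit inverse -/
def un (P P' : M4 k) (h : P * P' = 1) : (M4 k)ˣ := ⟨P, P', h, mul_eq_one_comm.1 h⟩

theorem exists_un {P : M4 k} (h : P.det ≠ 0) : ∃ U : (M4 k)ˣ, (U : M4 k) = P :=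
  (isUnit_iff_isUnit_det P).2 (isUnit_iff_ne_zero.2 h)

/-- matrix with given columns -/
def cols (a b c d : V4 k) : M4 k := of fun i j => ![a, b, c, d] j i

theorem cols_mulVec (a b c d x : V4 k) :
    cols a b c d *ᵥ x = x 0 • a + x 1 • b + x 2 • c + x 3 • d := by
  ext i; simp [cols, mulVec, dotProduct, Fin.sum_univ_four, mul_comm]

theorem mul_cols (A : M4 k) (a b c d : V4 k) :
    A * cols a b c d = cols (A *ᵥ a) (A *ᵥ b) (A *ᵥ c) (A *ᵥ d) := by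
  ext i j; fin_cases j <;> simp [cols, mul_apply, mulVec, dotProduct]

theorem cols_mx (a b c d : V4 k) {a0 a1 a2 a3 b0 b1 b2 b3 c0 c1 c2 c3 d0 d1 d2 d3 : k} :
    cols a b c d * mx a0 a1 a2 a3 b0 b1 b2 b3 c0 c1 c2 c3 d0 d1 d2 d3 =
      cols (a0 • a + b0 • b + c0 • c + d0 • d) (a1 • a + b1 • b + c1 • c + d1 • d)
        (a2 • a + b2 • b + c2 • c + d2 • d) (a3 • a + b3 • b + c3 • c + d3 • d) := by
  ext i j; fin_cases j <;> simp [cols, mx, mul_apply, Fin.sum_univ_four, mul_comm]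

theorem det_cols {a b c d : V4 k}
    (h : ∀ x y z w : k, x • a + y • b + z • c + w • d = 0 → x = 0 ∧ y = 0 ∧ z = 0 ∧ w = 0) :
    (cols a b c d).det ≠ 0 := fun e => by
  obtain ⟨v, h0, hv⟩ := exists_mulVec_eq_zero_iff.2 e
  obtain ⟨h1, h2, h3, h4⟩ := h _ _ _ _ (by rw [← cols_mulVec, hv])
  exact h0 (by ext i; fin_cases i <;> assumption)

/-- no invariant coordinate subspace -/
theorem Good.irrI (h : Good α) (I : Fin 4 → Prop) {i0 j0 : Fin 4} (h1 : ¬ I i0) (h2 : I j0) :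
    ¬ ∀ g i j, ¬ I i → I j → α g i j = 0 := fun H => by
  classical
  let W : Submodule k (V4 k) := Submodule.pi {i | ¬ I i} fun _ => ⊥
  have hW : ∀ v, v ∈ W ↔ ∀ i, ¬ I i → v i = 0 := fun v => Submodule.mem_pi
  rcases h.irr W (fun g w hw => (hW _).2 fun i hi => by
      change ∑ j, α g i j * w j = 0
      refine Finset.sum_eq_zero fun j _ => ?_
      by_cases hj : I j
      · simp [H g i j hi hj]
      · simp [(hW w).1 hw j hj]) with e | e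
  · have : (Pi.single j0 1 : V4 k) ∈ W := (hW _).2 fun i hi => Pi.single_eq_of_ne (by rintro rfl; exact hi h2) _
    rw [e, Submodule.mem_bot] at this
    simpa using congrFun this j0
  · have : (Pi.single i0 1 : V4 k) ∈ W := e ▸ Submodule.mem_top
    simpa using (hW _).1 this i0 h1

/-- a multiplicatively closed subset of a finite group -/
def sg [Finite Γ] (p : Γ → Prop) (h1 : p 1) (h2 : ∀ a b, p a → p b → p (a * b)) : Subgroup Γ where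
  carrier := {g | p g}
  one_mem' := h1
  mul_mem' := h2 _ _
  inv_mem' {x} hx := by
    have : ∀ n : ℕ, p (x ^ n) := fun n => by
      induction n with
      | zero => simpa using h1
      | succ n ih => rw [pow_succ]; exact h2 _ _ ih hx
    have e : x⁻¹ = x ^ (orderOf x - 1) := by
      rw [inv_eq_iff_mul_eq_one, ← pow_succ', Nat.sub_add_cancel (orderOf_pos x), pow_orderOf_eq_one]
    exact e ▸ this _

theorem root2 [IsAlgClosed k] {a : k} (h : a ≠ 0) (b c : k) : ∃ r, a * (r * r) + b * r + c = 0 := by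
  obtain ⟨r, hr⟩ := IsAlgClosed.exists_root (Polynomial.C a * Polynomial.X ^ 2 + Polynomial.C b *
    Polynomial.X + Polynomial.C c) (by rw [Polynomial.degree_quadratic h]; decide)
  exact ⟨r, by simpa [sq] using hr⟩

theorem un_eq (P : (M4 k)ˣ) (A : M4 k) : A * (P : M4 k) = P * (↑P⁻¹ * A * P) := by
  simp [mul_assoc]

variable [CharP k 2]

theorem two : (2 : k) = 0 := by exact_mod_cast CharP.cast_eq_zero k 2

theorem madd (A : M4 k) : A + A = 0 := by rw [← two_smul k, two, zero_smul]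

theorem vadd (v : V4 k) : v + v = 0 := by rw [← two_smul k, two, zero_smul]

theorem sq_of_N {N : M4 k} (h : N * N = 0) : (1 + N) * (1 + N) = 1 := by
  rw [mul_add, add_mul, add_mul, h]; simp [add_assoc, madd]

theorem N_sq {A : M4 k} (h : A * A = 1) : (1 + A) * (1 + A) = 0 := by
  rw [mul_add, add_mul, add_mul, h]; simp only [one_mul, mul_one]
  rw [add_comm A 1, madd]

theorem one_add_add (A : M4 k) : 1 + (1 + A) = A := by rw [← add_assoc, madd, zero_add]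

/-- the standard nilpotent -/
def N0 : M4 k := mx 0 0 1 0 0 0 0 1 0 0 0 0 0 0 0 0

theorem nf_N (h : Good α) {g : Γ} {N : M4 k} (hg : α g = 1 + N) (h2 : N * N = 0) (h0 : N ≠ 0) :
    ∃ P : (M4 k)ˣ, N * (P : M4 k) = (P : M4 k) * N0 := by
  obtain ⟨u, hu⟩ : ∃ u, N *ᵥ u ≠ 0 := by
    by_contra! H
    exact h0 (by ext i j; simpa using congrFun (H (Pi.single j 1)) i)
  obtain ⟨w, hw⟩ : ∃ w, ∀ c : k, N *ᵥ w ≠ c • N *ᵥ u := by
    by_contra! H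
    choose c hc using H
    have : N = vecMulVec (N *ᵥ u) fun j => c (Pi.single j 1) := by
      ext i j; simpa [vecMulVec_apply, mul_comm] using congrFun (hc (Pi.single j 1)) i
    have e := h.noTv g _ _ (hg.trans (by rw [← this]))
    rw [e, map_one] at hg
    exact h0 (by simpa using hg)
  have ind : ∀ x y : k, x • N *ᵥ u + y • N *ᵥ w = 0 → x = 0 ∧ y = 0 := fun x y e => by
    have hy : y = 0 := by
      by_contra hy
      refine hw (-x / y) ?_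
      rw [← one_smul k (N *ᵥ w), ← inv_mul_cancel₀ hy, mul_smul, eq_neg_of_add_eq_zero_right e]
      rw [smul_neg, smul_smul, ← neg_smul]; congr 1; ring
    subst hy
    exact ⟨by simpa [hu] using e, rfl⟩
  obtain ⟨P, hP⟩ := exists_un (det_cols (a := N *ᵥ u) (b := N *ᵥ w) (c := u) (d := w) fun x y z t e => by
    have e1 := congrArg (N *ᵥ ·) e
    simp only [mulVec_add, mulVec_smul, mulVec_mulVec, h2, zero_mulVec, smul_zero, zero_add,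
      mulVec_zero] at e1
    obtain ⟨rfl, rfl⟩ := ind _ _ e1
    obtain ⟨rfl, rfl⟩ := ind x y (by simpa using e)
    simp)
  refine ⟨P, ?_⟩
  rw [hP, mul_cols, N0, cols_mx]
  simp [h2]

/-- elements trivial on `ℓ` and `V / ℓ` -/
def tm (p q r s : k) : M4 k := mx 1 0 p q 0 1 r s 0 0 1 0 0 0 0 1

theorem Good.tv2 (h : Good α) {g : Γ} {p q r s : k} (hg : α g = tm p q r s) (hd : p * s = q * r) :
    g = 1 := by
  by_cases hp : p = 0
  · by_cases hq : q = 0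
    · exact h.noTv g ![0, 1, 0, 0] ![0, 0, r, s] (by rw [hg, tm]; mxs; grind)
    · exact h.noTv g ![q, s, 0, 0] ![0, 0, 0, 1] (by rw [hg, tm]; mxs; grind)
  · exact h.noTv g ![1, r / p, 0, 0] ![0, 0, p, q] (by rw [hg, tm]; mxs; grind)

theorem Good.tvE (h : Good α) {g : Γ} {a b c : k} (hg : α g = mx 1 a b c 0 1 0 0 0 0 1 0 0 0 0 1) :
    g = 1 := h.noTv g ![1, 0, 0, 0] ![0, a, b, c] (by rw [hg]; mxs)

theorem Good.eq (h : Good α) {a b : Γ} (e : α a = α b) : a = b := h.inj e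

theorem Good.eq1 (h : Good α) {a : Γ} (e : α a = 1) : a = 1 := h.inj (by rw [e, map_one])

end Cfsg.Agent.H9.C2
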