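import Cfsg.Agent.H9.C2.A
import Cfsg.Agent.H9.C2.G
import Cfsg.Agent.H9.Sp.Re1
import Cfsg.Agent.H2.NF3

/-! Groups of odd order in dimension at most four, characteristic two. -/

set_option autoImplicit false
set_option linter.unusedSectionVars false
set_option linter.unusedSimpArgs false
set_option linter.unusedVariables false

universe u

namespace Cfsg.Agent.H9.C2

open Module Subgroup

variable {k : Type u} [Field k] [CharP k 2] [IsAlgClosed k] {K : Type*} [Group K] [Finite K]

section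
variable {U : Type u} [AddCommGroup U] [Module k U] [FiniteDimensional k U] (ρ : Representation k K U)

/-- invariant subspace -/
abbrev Iv (W : Submodule k U) : Prop := ∀ g, W ≤ W.comap (ρ g)

theorem card_one (ho : Odd (Nat.card K)) : (Nat.card K : k) = 1 := by
  obtain ⟨n, hn⟩ := ho
  rw [hn]; simp [two]

theorem eig_inv {Y : End k U} (h : ∀ g, ρ g * Y = Y * ρ g) [Nontrivial U] :
    (∃ c : k, Y = c • 1) ∨ ∃ W : Submodule k U, W ≠ ⊥ ∧ W ≠ ⊤ ∧ Iv ρ W := by
  obtain ⟨μ, hμ⟩ := End.exists_eigenvalue Y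
  by_cases e : Y.eigenspace μ = ⊤
  · exact Or.inl ⟨μ, LinearMap.ext fun v => End.mem_eigenspace_iff.1 (e ▸ Submodule.mem_top)⟩
  · refine Or.inr ⟨_, hμ, e, fun g v hv => End.mem_eigenspace_iff.2 ?_⟩
    rw [← End.mul_apply, ← h, End.mul_apply, End.mem_eigenspace_iff.1 hv, map_smul]

theorem even_red (ho : Odd (Nat.card K)) [Nontrivial U] (he : Even (finrank k U)) :
    ∃ W : Submodule k U, W ≠ ⊥ ∧ W ≠ ⊤ ∧ Iv ρ W := by
  have : Fintype K := Fintype.ofFinite K
  obtain ⟨v, hv⟩ := exists_ne (0 : U)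
  obtain ⟨f, hf⟩ := Projective.exists_dual_eq_one k hv
  have h1 : LinearMap.trace k U (∑ g, ρ g * f.smulRight v * ρ g⁻¹) = 1 := by
    rw [map_sum, Finset.sum_congr rfl fun g _ => show _ = (1 : k) by
      rw [LinearMap.trace_mul_comm, ← mul_assoc, ← map_mul, inv_mul_cancel, map_one, one_mul,
        LinearMap.trace_smulRight, hf]]
    simpa [Nat.card_eq_fintype_card] using card_one (k := k) ho
  refine (eig_inv ρ (Y := ∑ g, ρ g * f.smulRight v * ρ g⁻¹) fun h => ?_).resolve_left fun ⟨c, hc⟩ => ?_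
  · rw [Finset.mul_sum, Finset.sum_mul]
    refine Fintype.sum_equiv (Equiv.mulLeft h) _ _ fun g => ?_
    simp [mul_assoc, ← map_mul ρ h⁻¹]
  · obtain ⟨n, hn⟩ := he
    rw [hc, map_smul, LinearMap.trace_one, hn, Nat.cast_add, CharTwo.add_self_eq_zero, smul_zero] at h1
    exact zero_ne_one h1

theorem unip {W : Submodule k U} (h : Iv ρ W) {x : K} (ho : Odd (orderOf x))
    (h1 : ρ.subrepresentation W h x = 1) (h2 : ρ.quotient W h x = 1) : ρ x = 1 := by
  have e : ρ (x * x) = 1 := LinearMap.ext fun v => by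
    have a : ρ x v - v ∈ W := (Submodule.Quotient.eq W).1 (LinearMap.congr_fun h2 (W.mkQ v))
    have b : ρ x (ρ x v - v) = ρ x v - v := congrArg Subtype.val (LinearMap.congr_fun h1 ⟨_, a⟩)
    rw [map_sub, sub_eq_iff_eq_add] at b
    rw [map_mul, End.mul_apply, b, sub_add_eq_add_sub, ← two_smul k, two, zero_smul, zero_sub,
      ← neg_one_smul k, CharTwo.neg_eq, one_smul, End.one_apply]
  obtain ⟨n, hn⟩ := ho
  have : (x * x) ^ n * x = 1 := by rw [← sq, ← pow_mul, ← pow_succ, ← hn, pow_orderOf_eq_one]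
  simpa [e] using congrArg ρ this

theorem comm1 (h : finrank k U ≤ 1) (f g : End k U) : f * g = g * f := by
  obtain ⟨v, hv⟩ := finrank_le_one_iff.1 h
  obtain ⟨a, ha⟩ := hv (f v)
  obtain ⟨b, hb⟩ := hv (g v)
  refine LinearMap.ext fun w => ?_
  obtain ⟨c, rfl⟩ := hv w
  simp only [End.mul_apply, map_smul, ← ha, ← hb, smul_smul]
  rw [mul_comm a]

theorem comm_step (ho : Odd (Nat.card K)) {W : Submodule k U} (h : Iv ρ W)
    (h1 : ∀ a b, ρ.subrepresentation W h a * ρ.subrepresentation W h b =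
      ρ.subrepresentation W h b * ρ.subrepresentation W h a)
    (h2 : ∀ a b, ρ.quotient W h a * ρ.quotient W h b = ρ.quotient W h b * ρ.quotient W h a) (a b : K) :
    ρ a * ρ b = ρ b * ρ a := by
  have key : ∀ {R : Type u} [Monoid R] (f : K →* R), f a * f b = f b * f a ↔
      f (a * b * (b * a)⁻¹) = 1 := fun f => by
    rw [← map_mul, ← map_mul]
    refine ⟨fun e => by rw [map_mul, e, ← map_mul, mul_inv_cancel, map_one], fun e => ?_⟩
    rw [← one_mul (f (b * a)), ← e, ← map_mul, inv_mul_cancel_right]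
  exact (key ρ).2 (unip ρ h (ho.of_dvd_nat (orderOf_dvd_natCard _)) ((key _).1 (h1 a b))
    ((key _).1 (h2 a b)))

theorem dims {W : Submodule k U} (h0 : W ≠ ⊥) (h1 : W ≠ ⊤) :
    0 < finrank k W ∧ finrank k W < finrank k U ∧ finrank k (U ⧸ W) + finrank k W = finrank k U :=
  ⟨Nat.pos_of_ne_zero fun e => h0 (Submodule.finrank_eq_zero.1 e), Submodule.finrank_lt h1,
    W.finrank_quotient_add_finrank⟩

theorem comm2 (ho : Odd (Nat.card K)) (h : finrank k U = 2) (a b : K) : ρ a * ρ b = ρ b * ρ a := by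
  have : Nontrivial U := nontrivial_of_finrank_eq_succ h
  obtain ⟨W, h0, h1, hW⟩ := even_red ρ ho (by rw [h]; decide)
  have := dims h0 h1
  exact comm_step ρ ho hW (fun _ _ => comm1 (by omega) _ _) (fun _ _ => comm1 (by omega) _ _) a b

theorem perf (hp : commutator K = ⊤) {R : Type*} [Monoid R] (f : K →* R)
    (h : ∀ a b, f a * f b = f b * f a) (g : K) : f g = 1 := by
  have : commutator K ≤ f.toHomUnits.ker := commutator_le.2 fun a _ b _ => by
    rw [MonoidHom.mem_ker, map_commutatorElement, commutatorElement_eq_one_iff_mul_comm]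
    exact Units.ext (h a b)
  exact congrArg Units.val (this (hp ▸ mem_top g))

theorem triv2 (ho : Odd (Nat.card K)) (hp : commutator K = ⊤) (h : finrank k U ≤ 2) (g : K) :
    ρ g = 1 := by
  refine perf hp ρ (fun a b => ?_) g
  rcases h.eq_or_lt with e | e
  exacts [comm2 ρ ho e a b, comm1 (by omega) _ _]

end

theorem triv3 {U : Type u} [AddCommGroup U] [Module k U] [FiniteDimensional k U]
    (ρ : Representation k K U) (ho : Odd (Nat.card K)) (hp : commutator K = ⊤) (h : finrank k U ≤ 3)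
    (g : K) : ρ g = 1 := by
  rcases h.eq_or_lt with h | h
  swap
  · exact triv2 ρ ho hp (by omega) g
  by_cases hr : ∃ W : Submodule k U, W ≠ ⊥ ∧ W ≠ ⊤ ∧ Iv ρ W
  · obtain ⟨W, h0, h1, hW⟩ := hr
    have := dims h0 h1
    exact unip ρ hW (ho.of_dvd_nat (orderOf_dvd_natCard _)) (triv2 _ ho hp (by omega) g)
      (triv2 _ ho hp (by omega) g)
  exfalso
  have : Fintype K := Fintype.ofFinite K
  have : Nontrivial U := nontrivial_of_finrank_eq_succ h
  let σ : Representation k K (End k U) := ρ.linHom ρ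
  have hσ : ∀ g x, σ g x = ρ g * x * ρ g⁻¹ := fun g x => rfl
  let τ : End k U →ₗ[k] k := LinearMap.trace k U
  have τσ : ∀ g x, τ (σ g x) = τ x := fun g x => by
    rw [hσ, LinearMap.trace_mul_comm, ← mul_assoc, ← map_mul, inv_mul_cancel, map_one, one_mul]
  have σm : ∀ g x y, σ g x * σ g y = σ g (x * y) := fun g x y => by
    simp only [hσ, mul_assoc]; rw [← mul_assoc (ρ g⁻¹), ← map_mul, inv_mul_cancel, map_one, one_mul]
  have τ1 : τ 1 = 1 := by
    rw [LinearMap.trace_one, h]; norm_num; rw [show (3 : k) = 2 + 1 by norm_num, two, zero_add]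
  have fix : ∀ y, τ y = 0 → (∀ g, σ g y = y) → y = 0 := fun y h0 hy => by
    obtain ⟨c, rfl⟩ := (eig_inv ρ (Y := y) fun g => by
      conv_rhs => rw [← hy g, hσ, mul_assoc, ← map_mul, inv_mul_cancel, map_one, mul_one]).resolve_right hr
    rw [map_smul, τ1, smul_eq_mul, mul_one] at h0
    rw [h0, zero_smul]
  let b : LinearMap.BilinForm k (End k U) := (LinearMap.mul k (End k U)).compr₂ τ
  have hb : ∀ x y, b x y = τ (x * y) := fun x y => rfl
  have bs : ∀ x y, b x y = b y x := fun x y => LinearMap.trace_mul_comm k x y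
  have bn : b.Nondegenerate := by
    have : ∀ x, (∀ y, b x y = 0) → x = 0 := fun x hx => LinearMap.ext fun v => by
      by_contra hv
      obtain ⟨f, hf⟩ := Projective.exists_dual_eq_one k hv
      have := hx (f.smulRight v)
      rw [hb, show x * f.smulRight v = f.smulRight (x v) by ext; simp, LinearMap.trace_smulRight, hf] at this
      exact one_ne_zero this
    exact ⟨this, fun x hx => this x fun y => bs x y ▸ hx y⟩
  have ba : ∀ x, b x x = τ x * τ x := fun x => by
    let B := finBasisOfFinrankEq k U h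
    simp only [hb, τ, LinearMap.trace_eq_matrix_trace k B, LinearMap.toMatrix_mul]
    simp only [Matrix.trace, Matrix.diag, Matrix.mul_apply, Fin.sum_univ_three]
    grind
  have E9 : finrank k (End k U) = 9 := by rw [finrank_linearMap, h]
  have S8 : finrank k (LinearMap.ker τ) = 8 := by
    have := LinearMap.finrank_range_add_finrank_ker τ
    rw [LinearMap.range_eq_top.2 fun c => ⟨c • 1, by simp [τ1]⟩, finrank_top, finrank_self, E9] at this
    omega
  obtain ⟨A, ⟨A0, AS, AI⟩, hA⟩ := exists_minimal_of_wellFoundedLT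
    (fun A : Submodule k (End k U) => A ≠ ⊥ ∧ A ≤ LinearMap.ker τ ∧ Iv σ A)
    ⟨LinearMap.ker τ, fun e => by rw [e, finrank_bot] at S8; omega, le_rfl, fun g x hx => (τσ g x).trans hx⟩
  have : Nontrivial A := Submodule.nontrivial_iff_ne_bot.2 A0
  have Aodd : ¬ Even (finrank k A) := fun he => by
    obtain ⟨W, h0, h1, hW⟩ := even_red (σ.subrepresentation A AI) ho he
    refine h1 (top_unique fun x _ => ?_)
    obtain ⟨y, hy, e⟩ := hA (y := W.map A.subtype) ⟨fun e => h0 (Submodule.map_injective_of_injective A.subtype_injective (by simpa using e)),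
      (Submodule.map_subtype_le _ _).trans AS, by
        rintro g _ ⟨y, hy, rfl⟩; exact ⟨_, hW g hy, rfl⟩⟩ (Submodule.map_subtype_le _ _) x.2
    exact Subtype.ext e ▸ hy
  have A3 : ¬ finrank k A ≤ 2 := fun e => by
    obtain ⟨y, hy⟩ := exists_ne (0 : A)
    exact hy (Subtype.ext (fix y (AS y.2) fun g =>
      congrArg Subtype.val (LinearMap.congr_fun (triv2 (σ.subrepresentation A AI) ho hp e g) y)))
  have PI : Iv σ (b.orthogonal A) := fun g x hx y hy => by
    have := hx _ (AI g⁻¹ hy)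
    rw [hb, ← τσ g, ← σm, ← End.mul_apply, ← map_mul, mul_inv_cancel,
      map_one] at this
    exact this
  have Aiso : A ≤ b.orthogonal A := by
    by_contra hn
    have : A ⊓ b.orthogonal A = ⊥ := by
      by_contra h0
      exact hn ((hA (y := A ⊓ b.orthogonal A) ⟨h0, inf_le_left.trans AS, fun g x hx =>
        ⟨AI g hx.1, PI g hx.2⟩⟩ inf_le_left).trans inf_le_right)
    have hS : Sp.Symp (b.restrict A) := ⟨fun v => by
      change b v v = 0
      rw [ba, show τ v = 0 from AS v.2, mul_zero], fun z hz => Subtype.ext (by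
        have : z.1 ∈ A ⊓ b.orthogonal A := ⟨z.2, fun y hy => hz ⟨y, hy⟩⟩
        simp_all)⟩
    refine Aodd (finrank_top k A ▸ Sp.NdOn.even hS fun w _ hw => ?_)
    by_contra! H
    exact hw (hS.nd w fun x => (bs _ _).trans (H x trivial))
  let A' := b.orthogonal A ⊓ LinearMap.ker τ
  have A'I : Iv σ A' := fun g x hx => ⟨PI g hx.1, (τσ g x).trans hx.2⟩
  have d1 := LinearMap.BilinForm.finrank_orthogonal bn A
  have d2 : finrank k A' < finrank k (b.orthogonal A) := Submodule.finrank_lt_finrank_of_lt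
    (lt_of_le_of_ne inf_le_left fun e => by
      have : (1 : End k U) ∈ A' := e ▸ fun y hy => by
        rw [hb, mul_one]; exact AS hy
      exact one_ne_zero (τ1.symm.trans this.2))
  have d3 := Submodule.finrank_sup_add_finrank_inf_eq (b.orthogonal A) (LinearMap.ker τ)
  have d4 := Submodule.finrank_le (b.orthogonal A ⊔ LinearMap.ker τ)
  have AA : A ≤ A' := le_inf Aiso AS
  have d5 := Submodule.finrank_mono AA
  have d6 : finrank k A = 3 := by
    rw [Nat.not_even_iff_odd, Nat.odd_iff] at Aodd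
    omega
  let A2 := A.comap A'.subtype
  have d7 : finrank k A2 = 3 := d6 ▸ (Submodule.comapSubtypeEquivOfLe AA).finrank_eq
  have A2I : Iv (σ.subrepresentation A' A'I) A2 := fun g x hx => AI g hx
  have d8 := A2.finrank_quotient_add_finrank
  obtain ⟨y, hy⟩ : ∃ y, y ∉ A2 := by
    by_contra! H
    rw [show A2 = ⊤ from top_unique fun y _ => H y, finrank_top] at d7
    change _ + finrank k A' = _ at d3
    omega
  have h2 : ∀ g, σ g y - y ∈ A := fun g => (Submodule.Quotient.eq A2).1 (LinearMap.congr_fun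
    (triv2 ((σ.subrepresentation A' A'I).quotient A2 A2I) ho hp (by omega) g) (A2.mkQ y))
  have h3 : ∑ g, σ g y = 0 := fix _ (by simp [τσ, show τ y = 0 from y.2.2]) fun g => by
    rw [map_sum]
    exact Fintype.sum_equiv (Equiv.mulLeft g) _ _ fun x => by simp
  have h4 := A.sum_mem (t := Finset.univ) fun g _ => h2 g
  rw [Finset.sum_sub_distrib, h3, Finset.sum_const, Finset.card_univ, ← Nat.card_eq_fintype_card,
    ← Nat.cast_smul_eq_nsmul k, card_one ho, one_smul, zero_sub, neg_mem_iff] at h4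
  exact hy h4

open Matrix

variable {Γ : Type*} [Group Γ] [Finite Γ] {α : Γ →* M4 k}

/-- the representation of a subgroup -/
def rp (α : Γ →* M4 k) (H : Subgroup Γ) : Representation k H (V4 k) :=
  (toLinAlgEquiv' : M4 k ≃ₐ[k] _).toMonoidHom.comp (α.comp H.subtype)

theorem rp_ap (H : Subgroup Γ) (g : H) (v : V4 k) : rp α H g v = α g *ᵥ v := rfl

theorem rp_inj (hG : Good α) (H : Subgroup Γ) : Function.Injective (rp α H) :=
  (toLinAlgEquiv' : M4 k ≃ₐ[k] _).injective.comp (hG.inj.comp Subtype.val_injective)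

theorem oddab (hG : Good α) {H : Subgroup Γ} (ho : Odd (Nat.card H)) (W : Submodule k (V4 k))
    (h2 : finrank k W = 2) (hW : ∀ g ∈ H, ∀ w ∈ W, α g *ᵥ w ∈ W) {a b : Γ} (ha : a ∈ H) (hb : b ∈ H) :
    a * b = b * a := by
  have := W.finrank_quotient_add_finrank
  rw [finrank_fin_fun] at this
  have e := comm_step (rp α H) ho (W := W) (fun g => hW g g.2) (comm2 _ ho h2) (comm2 _ ho (by omega))
    ⟨a, ha⟩ ⟨b, hb⟩
  rw [← map_mul, ← map_mul] at e
  exact congrArg Subtype.val (rp_inj hG H e)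

theorem solv (hG : Good α) (H : Subgroup Γ) (ho : Odd (Nat.card H)) : Group.IsSolvable H := by
  by_contra hn
  obtain ⟨N, h0, hp⟩ := H2.exists_perfect_of_not_solvable hn
  have ho' : Odd (Nat.card N) := ho.of_dvd_nat N.card_subgroup_dvd_card
  let ρ : Representation k N (V4 k) := (rp α H).comp N.subtype
  obtain ⟨W, h1, h2, hW⟩ := even_red ρ ho' (by rw [finrank_fin_fun]; decide)
  have := dims h1 h2
  rw [finrank_fin_fun] at this
  refine h0 (eq_bot_iff.2 fun g hg => rp_inj hG H ?_)
  rw [map_one]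
  exact unip ρ hW (x := ⟨g, hg⟩) (ho'.of_dvd_nat (orderOf_dvd_natCard _)) (triv3 _ ho' hp (by omega) _)
    (triv3 _ ho' hp (by omega) _)

end Cfsg.Agent.H9.C2
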