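import Cfsg.Agent.H9.C2.A
import Cfsg.Agent.H9.C2.G

/-! Scalable involutions: middle involutions and square roots. -/

set_option autoImplicit false
set_option linter.unusedSectionVars false
set_option linter.unusedSimpArgs false
set_option linter.unusedVariables false

namespace Cfsg.Agent.H9.C2

open Matrix Subgroup H8.M3

variable {k : Type*} [Field k] [CharP k 2] [IsAlgClosed k] {Γ : Type*} [Group Γ] [Finite Γ] {α : Γ →* M4 k}
  {F : Subfield k} {N N' : M4 k}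

/-- scalable nilpotents -/
def NN (α : Γ →* M4 k) (F : Subfield k) (N : M4 k) : Prop :=
  N * N = 0 ∧ N ≠ 0 ∧ ∀ s ∈ F, ∃ g, α g = 1 + s • N

theorem NN.one (h : NN α F N) : ∃ g, α g = 1 + N := by simpa using h.2.2 1 F.one_mem

theorem conj_of {g : Γ} (e : α g * N = N' * α g) : N' = α g * N * α g⁻¹ := by
  rw [e, mul_assoc, mul_inv', mul_one]

theorem NN.conj (h : NN α F N) (g : Γ) (e : α g * N = N' * α g) : NN α F N' := by
  rw [conj_of e]
  refine ⟨?_, fun h0 => h.2.1 ?_, fun s hs => ?_⟩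
  · rw [mul_assoc, ← mul_assoc (α g⁻¹), ← mul_assoc (α g⁻¹), inv_mul', one_mul, mul_assoc,
      ← mul_assoc N, h.1]; simp
  · have := congrArg (fun X => α g⁻¹ * X * α g) h0
    simpa [mul_assoc, inv_mul', ← mul_assoc (α g⁻¹)] using this
  · obtain ⟨t, ht⟩ := h.2.2 s hs
    exact ⟨g * t * g⁻¹, by simp [ht, mul_add, add_mul, mul_inv']⟩

theorem NN.smul (h : NN α F N) {s : k} (hs : s ∈ F) (h0 : s ≠ 0) : NN α F (s • N) :=
  ⟨by simp [h.1], by simp [h0, h.2.1], fun u hu => by rw [smul_smul]; exact h.2.2 _ (F.mul_mem hu hs)⟩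

theorem NN.add (h : NN α F N) (h' : NN α F N') (e : N * N' = 0) (e' : N' * N = 0) (h0 : N + N' ≠ 0) :
    NN α F (N + N') :=
  ⟨by simp [mul_add, add_mul, h.1, h'.1, e, e'], h0, fun s hs => by
    obtain ⟨a, ha⟩ := h.2.2 s hs
    obtain ⟨b, hb⟩ := h'.2.2 s hs
    exact ⟨a * b, by simp [ha, hb, mul_add, add_mul, e, add_assoc, add_comm (s • N)]⟩⟩

theorem NN.cj (h : NN α F N) (P : (M4 k)ˣ) (e : N * (P : M4 k) = (P : M4 k) * N') :
    NN (cj P α) F N' := by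
  have e' : N' = ↑P⁻¹ * N * P := by rw [mul_assoc, e, Units.inv_mul_cancel_left]
  refine ⟨?_, fun h0 => h.2.1 ?_, fun s hs => ?_⟩
  · rw [e']; simp [mul_assoc, ← mul_assoc N, h.1]
  · rw [h0, mul_zero] at e
    exact (Units.mul_left_eq_zero P).1 e
  · obtain ⟨t, ht⟩ := h.2.2 s hs
    exact ⟨t, cj_eq (by simp [ht, mul_add, add_mul, e])⟩

theorem NN.of_cj {P : (M4 k)ˣ} (h : NN (C2.cj P α) F N) : NN α F (P * N * ↑P⁻¹) := by
  refine ⟨?_, fun h0 => h.2.1 ?_, fun s hs => ?_⟩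
  · simp [mul_assoc, ← mul_assoc N, h.1]
  · exact (Units.mul_right_eq_zero P).1 ((Units.mul_left_eq_zero P⁻¹).1 h0)
  · obtain ⟨t, ht⟩ := h.2.2 s hs
    exact ⟨t, by rw [cj_back P t, ht]; simp [mul_add, add_mul]⟩

/-- the sum of two `2 × 2` blocks -/
def dd (a b c d a' b' c' d' : k) : M4 k := mx a 0 b 0 0 a' 0 b' c 0 d 0 0 c' 0 d'

theorem dd_mul (a b c d a' b' c' d' p q r s p' q' r' s' : k) :
    dd a b c d a' b' c' d' * dd p q r s p' q' r' s' =
      dd (a * p + b * r) (a * q + b * s) (c * p + d * r) (c * q + d * s)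
        (a' * p' + b' * r') (a' * q' + b' * s') (c' * p' + d' * r') (c' * q' + d' * s') := by
  simp only [dd]; mxs

theorem one_add_dd (a b c d a' b' c' d' : k) :
    1 + dd a b c d a' b' c' d' = dd (1 + a) b c (1 + d) (1 + a') b' c' (1 + d') := by
  simp only [dd]; mxs

/-- the elements preserving the two planes -/
def DD (α : Γ →* M4 k) : Subgroup Γ :=
  sg (fun g => ∃ a b c d a' b' c' d', α g = dd a b c d a' b' c' d')
    ⟨1, 0, 0, 1, 1, 0, 0, 1, by rw [map_one, mx_one]; rfl⟩ (by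
      rintro g h ⟨a, b, c, d, a', b', c', d', e⟩ ⟨p, q, r, s, p', q', r', s', e'⟩
      exact ⟨_, _, _, _, _, _, _, _, by rw [map_mul, e, e', dd_mul]⟩)

theorem blk {a b c p q r m w0 w1 w2 w3 : k} (ha : a * a = b * c) (hp : p * p = q * r)
    (hm : m * m * (b * r + c * q) = 1)
    (e1 : w0 * a + w1 * c = p * w0 + q * w2) (e2 : w0 * b + w1 * a = p * w1 + q * w3)
    (e3 : w2 * a + w3 * c = r * w0 + p * w2) (e4 : w2 * b + w3 * a = r * w1 + p * w3)
    (f1 : w0 * w0 + w1 * w2 = 1) (f2 : w0 * w1 + w1 * w3 = 0) (f3 : w2 * w0 + w3 * w2 = 0)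
    (f4 : w2 * w1 + w3 * w3 = 1) :
    w0 = m * (a + p) ∧ w1 = m * (b + q) ∧ w2 = m * (c + r) ∧ w3 = m * (a + p) := by
  have h0 : w3 = w0 := by grind
  subst h0
  grind

theorem cen2 {a b c p q r m x0 x1 x2 x3 : k} (hm : m * m * (b * r + c * q) = 1)
    (e1 : x0 * a + x1 * c = a * x0 + b * x2) (e2 : x0 * b + x1 * a = a * x1 + b * x3)
    (e3 : x2 * a + x3 * c = c * x0 + a * x2) (f1 : x0 * p + x1 * r = p * x0 + q * x2)
    (f2 : x0 * q + x1 * p = p * x1 + q * x3) (f3 : x2 * p + x3 * r = r * x0 + p * x2)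
    (g1 : x0 * x0 + x1 * x2 = 1) : x0 = 1 ∧ x1 = 0 ∧ x2 = 0 ∧ x3 = 1 := by
  have : x1 = 0 ∧ x2 = 0 ∧ x0 = x3 := by grind
  grind

theorem comm_of {A B C : M4 k} (h : A * (1 + B) = (1 + C) * A) : A * B = C * A := by
  simpa [mul_add, add_mul] using h

theorem mid0 {t t' : Γ} {a b c p q r m a' b' c' p' q' r' m' : k}
    (ht : α t = 1 + dd a b c a a' b' c' a') (ht' : α t' = 1 + dd p q r p p' q' r' p')
    (ha : a * a = b * c) (hp : p * p = q * r) (hm : m * m * (b * r + c * q) = 1)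
    (ha' : a' * a' = b' * c') (hp' : p' * p' = q' * r') (hm' : m' * m' * (b' * r' + c' * q') = 1) :
    ∃ w, α w = dd (m * (a + p)) (m * (b + q)) (m * (c + r)) (m * (a + p))
      (m' * (a' + p')) (m' * (b' + q')) (m' * (c' + r')) (m' * (a' + p')) ∧
      α w * dd a b c a a' b' c' a' = dd p q r p p' q' r' p' * α w := by
  obtain ⟨w, ⟨w0, w1, w2, w3, v0, v1, v2, v3, hw⟩, h1, h2⟩ := dih (DD α) α (map_one α)
    (fun a _ b _ => map_mul α a b) (s := t) (t := t')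
    ⟨_, _, _, _, _, _, _, _, ht.trans (one_add_dd ..)⟩
    ⟨_, _, _, _, _, _, _, _, ht'.trans (one_add_dd ..)⟩
    (by rw [ht]; exact sq_of_N (by rw [dd]; mxs; grind))
    (by rw [ht']; exact sq_of_N (by rw [dd]; mxs; grind)) (by
      rintro z ⟨w0, w1, w2, w3, v0, v1, v2, v3, hw⟩ h1 h2 h3
      rw [ht] at h2
      rw [ht'] at h3
      replace h2 := comm_of h2
      replace h3 := comm_of h3
      rw [hw] at h1 h2 h3 ⊢
      simp only [dd] at h1 h2 h3 ⊢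
      mxs at h1 h2 h3 ⊢
      have := cen2 hm h2.1 h2.2.1 h2.2.2.2.2.1 h3.1 h3.2.1 h3.2.2.2.2.1 h1.1
      have := cen2 hm' h2.2.2.1 h2.2.2.2.1 h2.2.2.2.2.2.2.1 h3.2.2.1 h3.2.2.2.1 h3.2.2.2.2.2.2.1
        h1.2.2.1
      tauto)
  rw [ht, ht'] at h1
  replace h1 := comm_of h1
  refine ⟨w, ?_, h1⟩
  rw [hw] at h1 h2 ⊢
  simp only [dd] at h1 h2 ⊢
  mxs at h1 h2 ⊢
  obtain ⟨e1, e2, e3, e4, e5, e6, e7, e8⟩ := h1
  obtain ⟨f1, f2, f3, f4, f5, f6, f7, f8⟩ := h2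
  have := blk ha hp hm e1 e2 e5 e6 f1 f2 f5 f6
  have := blk ha' hp' hm' e3 e4 e7 e8 f3 f4 f7 f8
  tauto

theorem mid1 {a b c p q r m a' b' c' p' q' r' m' : k}
    (h : NN α F (dd a b c a a' b' c' a')) (h' : NN α F (dd p q r p p' q' r' p'))
    (hm : m * m * (b * r + c * q) = 1) (hm' : m' * m' * (b' * r' + c' * q') = 1) :
    NN α F (dd (1 + m * (a + p)) (m * (b + q)) (m * (c + r)) (1 + m * (a + p))
      (1 + m' * (a' + p')) (m' * (b' + q')) (m' * (c' + r')) (1 + m' * (a' + p'))) := by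
  obtain ⟨t, ht⟩ := h.one
  obtain ⟨t', ht'⟩ := h'.one
  have h1 := h.1
  have h2 := h'.1
  simp only [dd] at h1 h2
  mxs at h1 h2
  obtain ⟨w, hw, -⟩ := mid0 ht ht' (by grind) (by grind) hm (by grind) (by grind) hm'
  obtain ⟨n, hn⟩ := IsAlgClosed.exists_pow_nat_eq m two_pos
  obtain ⟨n', hn'⟩ := IsAlgClosed.exists_pow_nat_eq m' two_pos
  obtain ⟨y, -, hy⟩ := mid0 (m := n) (m' := n') ht (t' := w) (p := 1 + m * (a + p)) (q := m * (b + q))
    (r := m * (c + r)) (p' := 1 + m' * (a' + p')) (q' := m' * (b' + q')) (r' := m' * (c' + r'))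
    (by rw [hw, dd, dd]; mxs; grind) (by grind) (by grind) (by grind) (by grind) (by grind) (by grind)
  exact h.conj y hy

end Cfsg.Agent.H9.C2
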