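import Cfsg.Agent.H9.C2.U1

/-! Scalable involutions: the normal form of a pair. -/

set_option autoImplicit false
set_option linter.unusedSectionVars false
set_option linter.unusedSimpArgs false
set_option linter.unusedVariables false

namespace Cfsg.Agent.H9.C2

open Matrix Subgroup H8.M3

variable {k : Type*} [Field k] [CharP k 2] [IsAlgClosed k] {Γ : Type*} [Group Γ] [Finite Γ]
  {α : Γ →* M4 k} {F : Subfield k} {N N' : M4 k} {c : k}

def Up (a b : k) : M4 k := dd 0 a 0 0 0 b 0 0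
def Lo (a b : k) : M4 k := dd 0 0 a 0 0 0 b 0

theorem N0_eq : (N0 : M4 k) = Up 1 1 := rfl

theorem dd_smul (s a b c d a' b' c' d' : k) : s • dd a b c d a' b' c' d' =
    dd (s * a) (s * b) (s * c) (s * d) (s * a') (s * b') (s * c') (s * d') := by
  simp only [dd]; mxs

theorem swapUL {a b a' b' m m' : k} (h : NN α F (Up a a')) (h' : NN α F (Lo b b'))
    (hm : m * m * (a * b) = 1) (hm' : m' * m' * (a' * b') = 1) :
    ∃ w, α w = dd 0 (m * a) (m * b) 0 0 (m' * a') (m' * b') 0 := by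
  obtain ⟨t, ht⟩ := h.one
  obtain ⟨t', ht'⟩ := h'.one
  obtain ⟨w, hw, -⟩ := mid0 (m := m) (m' := m') ht ht' (by simp) (by simp) (by simpa using hm) (by simp)
    (by simp) (by simpa using hm')
  exact ⟨w, by simpa using hw⟩

theorem sqrtU (hc : c ∈ F) (c0 : c ≠ 0) (c1 : c ≠ 1) {a b a' b' m m' : k} (h : NN α F (Up a a'))
    (h' : NN α F (Lo b b')) (hm : m * m * (a * b) = 1) (hm' : m' * m' * (a' * b') = 1) :
    NN α F (Up (m * a) (m' * a')) := by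
  have c2 : 1 + c ≠ 0 := by grind
  have h1 := mid1 (m := m) (m' := m') h h' (by simpa using hm) (by simpa using hm')
  have h2 := h.smul (F.mul_mem hc hc) (mul_ne_zero c0 c0)
  rw [Up, dd_smul] at h2
  have h3 := (mid1 (m := m / c) (m' := m' / c) h2 h' (by grind) (by grind)).smul hc c0
  rw [dd_smul] at h3
  have h4 := (mid1 (m := (1 + c)⁻¹) (m' := (1 + c)⁻¹) h1 h3 (by grind) (by grind)).smul
    (F.inv_mem (F.add_mem F.one_mem hc)) (inv_ne_zero c2)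
  rw [dd_smul] at h4
  convert h4 using 1
  simp only [Up, dd]; mxs; grind

theorem red {x : M4 k} {θ : k} (h : x * x = θ • x + 1) (h0 : θ ≠ 0) (m : ℕ) (e : x ^ m * x ^ m = 1) :
    x ^ m = 1 := by
  obtain ⟨a, b, hab⟩ : ∃ a b : k, x ^ m = a • 1 + b • x := by
    clear e
    induction m with
    | zero => exact ⟨1, 0, by simp⟩
    | succ m ih =>
      obtain ⟨a, b, ih⟩ := ih
      exact ⟨b, a + b * θ, by rw [pow_succ, ih, add_mul, smul_mul_assoc, smul_mul_assoc, h, one_mul]; module⟩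
  have key : ∀ μ : k, x ^ m = μ • 1 → x ^ m = 1 := fun μ e1 => by
    rw [e1] at e ⊢
    have := congrFun (congrFun e 0) 0
    simp at this
    rw [show μ = 1 by grind, one_smul]
  by_cases hb : b = 0
  · exact key a (by simp [hab, hb])
  · have e2 : (b * b * θ) • x = (1 + a * a + b * b) • 1 := by
      rw [hab] at e
      simp only [add_mul, mul_add, smul_mul_assoc, mul_smul_comm, h, one_mul, mul_one] at e
      linear_combination (norm := module)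
        e - (two (k := k)) • ((a * b) • x + (a * a + b * b) • (1 : M4 k))
    refine key (a + b * ((b * b * θ)⁻¹ * (1 + a * a + b * b))) ?_
    rw [hab, add_smul, mul_smul, mul_smul, ← e2, smul_smul (b * b * θ)⁻¹,
      inv_mul_cancel₀ (by simp [hb, h0]), one_smul]

theorem oddq {g : Γ} {x u : M4 k} {θ : k} (e : α g = x * u) (hu : u * u = 1) (hc : x * u = u * x)
    (h : x * x = θ • x + 1) (h0 : θ ≠ 0) : ∃ j : ℕ, α (g ^ (2 * j + 1)) = u := by
  obtain ⟨a, n, ⟨j, rfl⟩, ho, -⟩ := exists_odd_pow g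
  have hp : ∀ m : ℕ, α (g ^ m) = x ^ m * u ^ m := fun m => by rw [map_pow, e, Commute.mul_pow hc]
  have hu2 : ∀ m : ℕ, u ^ (2 * m) = 1 := fun m => by rw [pow_mul, sq, hu, one_pow]
  have : ∀ i : ℕ, x ^ (2 ^ i * (2 * j + 1)) = 1 → x ^ (2 * j + 1) = 1 := fun i => by
    induction i with
    | zero => simp
    | succ i ih => exact fun e1 => ih (red h h0 _ (by rw [← pow_add, ← e1]; congr 1; ring))
  refine ⟨j, ?_⟩
  rw [hp, this (a + 1), one_mul, pow_succ, hu2, one_mul]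
  have := hp (2 * (2 ^ a * (2 * j + 1)))
  rw [hu2, mul_one, ← ho, mul_comm 2, pow_mul, pow_orderOf_eq_one, one_pow, map_one, ho] at this
  rw [this]; congr 1; ring

theorem noJ (hG : Good α) (hc : c ∈ F) (c0 : c ≠ 0) (c1 : c ≠ 1) {δ γ : k} (h : NN α F N0)
    (h' : NN α F (mx 0 0 0 0 0 0 0 0 δ γ 0 0 0 δ 0 0)) (hδ : δ ≠ 0) : γ = 0 := by
  obtain ⟨t', ht'⟩ := h'.one
  obtain ⟨l, rfl⟩ : ∃ l, γ = l * δ := ⟨γ / δ, by field_simp⟩
  have key : ∀ s ∈ F, s ≠ 0 → ∃ g, α g = mx 1 (c * l) 0 ((c + c * c) * s * l) 0 1 0 0 0 0 1 (c * l) 0 0 0 1 := by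
    intro s hs s0
    obtain ⟨t, ht⟩ := h.2.2 s hs
    have t2 : t * t = 1 := hG.eq1 (by rw [map_mul, ht]; exact sq_of_N (h.smul hs s0).1)
    have t2' : t' * t' = 1 := hG.eq1 (by rw [map_mul, ht']; exact sq_of_N h'.1)
    obtain ⟨j, hj⟩ := oddq (α := α) (g := t * t') (u := mx 1 l 0 0 0 1 0 0 0 0 1 l 0 0 0 1) (θ := s * δ)
      (x := α (t * t') * mx 1 l 0 0 0 1 0 0 0 0 1 l 0 0 0 1)
      (by rw [map_mul, ht, ht', N0]; mxs; grind) (by mxs; grind)
      (by rw [map_mul, ht, ht', N0]; mxs; grind) (by rw [map_mul, ht, ht', N0]; mxs; grind)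
      (mul_ne_zero s0 hδ)
    have e : ((t * t') ^ j)⁻¹ * t' = t * (t * t') ^ (2 * j + 1) * ((t * t') ^ j)⁻¹ := by
      have i1 : t * (t * t') * t⁻¹ = (t * t')⁻¹ := by
        rw [_root_.mul_inv_rev, S4.inv_self t2, S4.inv_self t2', ← mul_assoc, t2, one_mul]
      have i2 : t * (t * t') ^ j * t⁻¹ = ((t * t') ^ j)⁻¹ := by rw [← conj_pow, i1, inv_pow]
      rw [show 2 * j + 1 = j + 1 + j by ring, pow_add, mul_assoc, mul_inv_cancel_right, pow_succ,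
        ← i2, S4.inv_self t2]
      group
    have h2 : NN α F (mx 0 l s (s * l) 0 0 0 s 0 0 0 l 0 0 0 0) := h'.conj ((t * t') ^ j)⁻¹ (comm_of (by
      rw [← ht', ← map_mul, e, map_mul, map_mul, hj, ht, N0]; congr 1; mxs))
    obtain ⟨a, ha⟩ := h2.2.2 c hc
    obtain ⟨b, hb⟩ := h.2.2 (c * s) (F.mul_mem hc hs)
    exact ⟨a * b, by rw [map_mul, ha, hb, N0]; mxs; grind⟩
  obtain ⟨a, ha⟩ := key 1 F.one_mem one_ne_zero
  obtain ⟨b, hb⟩ := key c hc c0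
  have e : α (a * b) = mx 1 0 0 ((c + c * c) * (1 + c) * l) 0 1 0 0 0 0 1 0 0 0 0 1 := by
    rw [map_mul, ha, hb]; mxs; grind
  rw [hG.tvE e, map_one] at e
  mxs at e; grind

theorem noK0 (hG : Good α) (hc : c ∈ F) (c0 : c ≠ 0) (c1 : c ≠ 1) {δ β : k} (h : NN α F N0)
    (h' : NN α F (dd 0 0 δ 0 0 β 0 0)) : δ = 0 := by
  by_contra hδ
  obtain ⟨t', ht'⟩ := h'.one
  have key : ∀ s ∈ F, s ≠ 0 → s = β := fun s hs s0 => by
    obtain ⟨t, ht⟩ := h.2.2 s hs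
    rw [N0_eq, Up, dd_smul] at ht
    obtain ⟨m, hm⟩ := IsAlgClosed.exists_pow_nat_eq (s * δ)⁻¹ two_pos
    obtain ⟨w, ⟨w0, w1, w2, w3, v0, v1, v2, v3, hw⟩, h1, h2⟩ := dih (DD α) α (map_one α)
      (fun a _ b _ => map_mul α a b) (s := t) (t := t')
      ⟨_, _, _, _, _, _, _, _, ht.trans (one_add_dd ..)⟩ ⟨_, _, _, _, _, _, _, _, ht'.trans (one_add_dd ..)⟩
      (by rw [ht]; exact sq_of_N (by rw [dd]; mxs)) (by rw [ht']; exact sq_of_N h'.1) (by
        rintro z ⟨w0, w1, w2, w3, v0, v1, v2, v3, hw⟩ h1 h2 h3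
        rw [ht] at h2
        rw [ht'] at h3
        replace h2 := comm_of h2
        replace h3 := comm_of h3
        rw [hw] at h1 h2 h3
        simp only [dd] at h1 h2 h3 hw
        mxs at h1 h2 h3
        rw [hG.tv2 (g := z) (p := 0) (q := 0) (r := 0) (s := v1) (by rw [hw, tm]; mxs; grind) (by simp),
          map_one])
    rw [ht, ht'] at h1
    replace h1 := comm_of h1
    rw [hw] at h1 h2
    simp only [dd] at h1 h2
    mxs at h1 h2
    grind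
  exact c1 ((key c hc c0).trans (key 1 F.one_mem one_ne_zero).symm)

theorem noK1 (hG : Good α) (hc : c ∈ F) (c0 : c ≠ 0) (c1 : c ≠ 1) {γ β : k} (h : NN α F N0)
    (h' : NN α F (mx 0 0 0 β 0 0 0 0 0 γ 0 0 0 0 0 0)) : γ = 0 := by
  obtain ⟨t, ht⟩ := h.one
  obtain ⟨t', ht'⟩ := h'.one
  obtain ⟨u, hu⟩ := h.2.2 c hc
  obtain ⟨u', hu'⟩ := h'.2.2 c hc
  have e : α (u * t' * (u * t') * (t * u' * (t * u'))) =
      mx 1 0 0 (c * (1 + c) * γ) 0 1 0 0 0 0 1 0 0 0 0 1 := by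
    simp only [map_mul, ht, ht', hu, hu', N0]; mxs; grind
  rw [hG.tvE e, map_one] at e
  mxs at e; grind

/-- the normal form of a skew pair -/
def Fm (N N' : M4 k) : Prop :=
  ∃ (P : (M4 k)ˣ) (a b : k), a ≠ 0 ∧ b ≠ 0 ∧ N * (P : M4 k) = (P : M4 k) * N0 ∧
    N' * (P : M4 k) = (P : M4 k) * Lo a b

theorem Fm.step {M M' : M4 k} (P : (M4 k)ˣ) (e : N * (P : M4 k) = P * M) (e' : N' * (P : M4 k) = P * M')
    (h : Fm M M') : Fm N N' := by
  obtain ⟨Q, a, b, ha, hb, h1, h2⟩ := h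
  exact ⟨P * Q, a, b, ha, hb, by rw [Units.val_mul, ← mul_assoc, e, mul_assoc, h1, mul_assoc],
    by rw [Units.val_mul, ← mul_assoc, e', mul_assoc, h2, mul_assoc]⟩

/-- change of basis in `ℓ` -/
def bd (x y z w : k) (h : x * w + y * z = 1) : (M4 k)ˣ :=
  un (mx x y 0 0 z w 0 0 0 0 x y 0 0 z w) (mx w y 0 0 z x 0 0 0 0 w y 0 0 z x) (by mxs; grind)

theorem bd_val (x y z w : k) (h : x * w + y * z = 1) :
    (bd x y z w h : M4 k) = mx x y 0 0 z w 0 0 0 0 x y 0 0 z w := rfl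

theorem bd_inv (x y z w : k) (h : x * w + y * z = 1) :
    (↑(bd x y z w h)⁻¹ : M4 k) = mx w y 0 0 z x 0 0 0 0 w y 0 0 z x := rfl

def tu (p q r s : k) : (M4 k)ˣ := un (tm p q r s) (tm p q r s) (by rw [tm]; mxs; grind)

theorem tu_val (p q r s : k) : (tu p q r s : M4 k) = mx 1 0 p q 0 1 r s 0 0 1 0 0 0 0 1 := rfl

section
variable (hG : Good α) (hc : c ∈ F) (c0 : c ≠ 0) (c1 : c ≠ 1) (h : NN α F N0)
  {a0 a1 a2 a3 b0 b1 b2 b3 c2 c3 d2 d3 x y z w : k}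
include hG hc c0 c1 h

theorem fm4 (h' : NN α F (mx a0 a1 a2 a3 b0 b1 b2 b3 x y c2 c3 0 w d2 d3)) (hy : y = 0 ∨ x = w)
    (hx : x ≠ 0 ∨ y ≠ 0) : Fm N0 (mx a0 a1 a2 a3 b0 b1 b2 b3 x y c2 c3 0 w d2 d3) := by
  have h2 := h'.1
  mxs at h2
  by_cases x0 : x = 0
  · have e : mx a0 a1 a2 a3 b0 b1 b2 b3 x y c2 c3 0 w d2 d3 * (tu (a1 / y) 0 (b1 / y) (c3 / y) : M4 k) =
        tu (a1 / y) 0 (b1 / y) (c3 / y) * mx 0 0 0 (a3 + a1 * c3 / y) 0 0 0 0 0 y 0 0 0 0 0 0 := by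
      rw [tu_val]; mxs; grind
    have := noK1 (hG.cj _) hc c0 c1 (h.cj _ (by rw [tu_val, N0]; mxs)) (h'.cj _ e)
    grind
  by_cases w0 : w = 0
  · have e : mx a0 a1 a2 a3 b0 b1 b2 b3 x y c2 c3 0 w d2 d3 * (tu (a0 / x) (c3 / x) (b0 / x) 0 : M4 k) =
        tu (a0 / x) (c3 / x) (b0 / x) 0 * dd 0 0 x 0 0 (b3 + b0 * c3 / x) 0 0 := by
      rw [tu_val, dd]; mxs; grind
    exact absurd (noK0 (hG.cj _) hc c0 c1 (h.cj _ (by rw [tu_val, N0]; mxs)) (h'.cj _ e)) x0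
  obtain ⟨p, q, r, s, rfl, rfl, rfl, rfl⟩ : ∃ p q r s, a0 = p * x ∧ a1 = p * y + q * w ∧ b0 = r * x ∧
      b1 = r * y + s * w := ⟨a0 / x, (a1 + a0 / x * y) / w, b0 / x, (b1 + b0 / x * y) / w, by
    clear h2 hy hx; grind⟩
  have e : mx (p * x) (p * y + q * w) a2 a3 (r * x) (r * y + s * w) b2 b3 x y c2 c3 0 w d2 d3 *
      (tu p q r s : M4 k) = tu p q r s * mx 0 0 0 0 0 0 0 0 x y 0 0 0 w 0 0 := by
    clear hy hx
    have : d2 = w * r := by grind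
    have : c2 = x * p + y * r := by grind
    have : d3 = w * s := by grind
    have : c3 = x * q + y * s := by grind
    rw [tu_val]; mxs; and_intros <;> grind
  obtain rfl : y = 0 := by
    rcases hy with hy | rfl
    · exact hy
    · exact noJ (hG.cj _) hc c0 c1 (h.cj _ (by rw [tu_val, N0]; mxs)) (h'.cj _ e) x0
  exact ⟨_, x, w, x0, w0, by rw [tu_val, N0]; mxs, e⟩

end

theorem bd_N0 (x y z w : k) (h : x * w + y * z = 1) : 
    N0 * (bd x y z w h : M4 k) = (bd x y z w h : M4 k) * N0 := by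
  rw [bd_val, N0]; mxs

theorem fm1 (hG : Good α) (hc : c ∈ F) (c0 : c ≠ 0) (c1 : c ≠ 1) (h : NN α F N0) (h' : NN α F N')
    (hn : N0 * N' * N0 ≠ 0) : Fm N0 N' := by
  have st : ∀ {α : Γ →* M4 k} {N' : M4 k} (x y z w : k) (e : x * w + y * z = 1), Good α → NN α F N0 →
      NN α F N' → (Good (cj (bd x y z w e) α) → NN (cj (bd x y z w e) α) F N0 →
        NN (cj (bd x y z w e) α) F ((↑(bd x y z w e)⁻¹ : M4 k) * N' * (bd x y z w e : M4 k)) →
          Fm N0 ((↑(bd x y z w e)⁻¹ : M4 k) * N' * (bd x y z w e : M4 k))) → Fm N0 N' :=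
    fun x y z w e hG h h' H => Fm.step _ (bd_N0 ..) (un_eq ..)
      (H (hG.cj _) (h.cj _ (bd_N0 ..)) (h'.cj _ (un_eq ..)))
  have s3 : ∀ {α : Γ →* M4 k} {N' : M4 k}, Good α → NN α F N0 → NN α F N' → N' 3 0 = 0 →
      N0 * N' * N0 ≠ 0 → Fm N0 N' := fun {α N'} hG h h' h0 hn => by
    obtain ⟨a0, a1, a2, a3, b0, b1, b2, b3, x, y, c2, c3, z, w, d2, d3, rfl⟩ := ex N'
    obtain rfl : z = 0 := h0
    rw [N0] at hn
    mxs at hn
    by_cases e : x = w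
    · exact fm4 hG hc c0 c1 h h' (Or.inr e) (by grind)
    refine st 1 (y / (x + w)) 0 1 (by simp) hG h h' fun hG h h' => ?_
    rw [bd_val, bd_inv, mx_mul, mx_mul] at h' ⊢
    by_cases x0 : x = 0
    · refine st 0 1 1 0 (by simp) hG h h' fun hG h h' => ?_
      rw [bd_val, bd_inv, mx_mul, mx_mul] at h' ⊢
      convert fm4 hG hc c0 c1 h (by convert h' using 2; grind) (by grind) (by grind) using 2
      grind
    · convert fm4 hG hc c0 c1 h (by convert h' using 2; grind) (by grind) (by grind) using 2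
      grind
  obtain ⟨a0, a1, a2, a3, b0, b1, b2, b3, x, y, c2, c3, z, w, d2, d3, rfl⟩ := ex N'
  by_cases z0 : z = 0
  · exact s3 hG h h' z0 hn
  obtain ⟨r, hr⟩ : ∃ r, z * (r * r) + (w + x) * r + y = 0 := root2 z0 _ _
  refine st r 1 1 0 (by simp) hG h h' fun hG h h' => s3 hG h h' ?_ ?_
  · rw [bd_val, bd_inv]; mxs; grind
  · rw [bd_val, bd_inv, N0]; mxs; grind

theorem pair (hG : Good α) (hc : c ∈ F) (c0 : c ≠ 0) (c1 : c ≠ 1) (h : NN α F N) (h' : NN α F N') :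
    N * N' = N' * N ∨ Fm N N' := by
  have L1 : ∀ {N N' : M4 k}, NN α F N → NN α F N' → N * N' * N ≠ 0 → Fm N N' := fun {N N'} h h' hn => by
    obtain ⟨t, ht⟩ := h.one
    obtain ⟨P, hP⟩ := nf_N hG ht h.1 h.2.1
    refine Fm.step P hP (un_eq ..) (fm1 (hG.cj P) hc c0 c1 (h.cj P hP) (h'.cj P (un_eq ..)) fun e => hn ?_)
    rw [← Units.mul_left_eq_zero P, mul_assoc, hP, ← mul_assoc, mul_assoc N, un_eq P N', ← mul_assoc, hP,
      mul_assoc, mul_assoc, ← mul_assoc N0, e, mul_zero]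
  by_cases h1 : N * N' * N = 0
  swap
  · exact Or.inr (L1 h h' h1)
  by_cases h2 : N' * N * N' = 0
  swap
  · obtain ⟨P, a, b, ha, hb, e1, e2⟩ := L1 h' h h2
    rw [← Units.mul_left_eq_zero P, mul_assoc, e2, ← mul_assoc, mul_assoc N, e1, ← mul_assoc, e2,
      mul_assoc, mul_assoc, Units.mul_right_eq_zero, N0, Lo, dd] at h1
    mxs at h1; grind
  left
  obtain ⟨t, ht⟩ := h.one
  obtain ⟨P, hP⟩ := nf_N hG ht h.1 h.2.1
  obtain ⟨t', ht'⟩ := (h'.cj P (un_eq ..)).one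
  have e0 := (h'.cj P (un_eq ..)).1
  have hN : N = (P : M4 k) * N0 * (↑P⁻¹ : M4 k) := by rw [← hP, Units.mul_inv_cancel_right]
  obtain ⟨M, rfl⟩ : ∃ M : M4 k, N' = (P : M4 k) * M * (↑P⁻¹ : M4 k) :=
    ⟨(↑P⁻¹ : M4 k) * N' * (P : M4 k), by simp only [mul_assoc, Units.mul_inv, mul_one,
      Units.mul_inv_cancel_left]⟩
  subst hN
  simp only [mul_assoc, Units.inv_mul_cancel_left, Units.mul_right_eq_zero, Units.inv_mul, mul_one,
    Units.mul_right_inj] at h1 h2 ht' e0 ⊢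
  simp only [← mul_assoc, Units.mul_left_eq_zero, Units.mul_left_inj] at h1 h2 ⊢
  replace ht : cj P α t = 1 + N0 := cj_eq (by rw [ht]; simp [mul_add, add_mul])
  obtain ⟨a0, a1, a2, a3, b0, b1, b2, b3, x, y, c2, c3, z, w, d2, d3, rfl⟩ := ex M
  clear L1 h h' hP
  rw [N0] at *
  mxs at h1
  obtain ⟨rfl, rfl, rfl, rfl⟩ := h1
  mxs at h2 e0
  have e : cj P α (t * t' * (t * t')) = tm (a0 + c2) (a1 + c3) (b0 + d2) (b1 + d3) := by
    simp only [map_mul, ht, ht', tm]; mxs; and_intros <;> grind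
  rw [(hG.cj P).tv2 e (by grind), map_one, tm] at e
  mxs at e ⊢; grind

end Cfsg.Agent.H9.C2
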