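import Cfsg.Agent.H9.C2.U2

/-! A scalable involution forces self-duality. -/

set_option autoImplicit false
set_option linter.unusedSectionVars false
set_option linter.unusedSimpArgs false
set_option linter.unusedVariables false

namespace Cfsg.Agent.H9.C2

open Matrix Subgroup H8.M3

variable {k : Type*} [Field k] [CharP k 2] [IsAlgClosed k] {Γ : Type*} [Group Γ] [Finite Γ]
  {α : Γ →* M4 k} {F : Subfield k} {N N' : M4 k} {c : k}

theorem exists_m {a : k} (h : a ≠ 0) : ∃ m, m * m * (1 * a) = 1 := by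
  obtain ⟨m, hm⟩ := IsAlgClosed.exists_eq_mul_self a⁻¹
  exact ⟨m, by rw [← hm]; simp [h]⟩

theorem exi {a : k} (h : a ≠ 0) : ∃ b, a * b = 1 := ⟨a⁻¹, mul_inv_cancel₀ h⟩

theorem back {P : (M4 k)ˣ} {A B : M4 k} (e : A * (P : M4 k) = P * B) : A = P * B * (↑P⁻¹ : M4 k) := by
  rw [← e, Units.mul_inv_cancel_right]

theorem pr (hG : Good α) (hc : c ∈ F) (c0 : c ≠ 0) (c1 : c ≠ 1) (h : NN α F N) (h' : NN α F N') :
    N * N' = N' * N ∨ ∃ m : M4 k, m * N = N * m ∧ m * m * (N * N' + N' * N) = 1 ∧ NN α F (m * N) ∧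
      ∀ l : k, (N * N' + N' * N) * (N * N' + N' * N) = l • 1 → ∃ u : k, N * N' + N' * N = u • 1 := by
  refine (pair hG hc c0 c1 h h').imp_right fun ⟨P, a, b, ha, hb, e, e'⟩ => ?_
  obtain ⟨m, hm⟩ := exists_m ha
  obtain ⟨n, hn⟩ := exists_m hb
  have h1 := (sqrtU hc c0 c1 (h.cj P e) (h'.cj P e') hm hn).of_cj
  have hM : N * N' + N' * N = P * dd a 0 0 a b 0 0 b * (↑P⁻¹ : M4 k) := by
    rw [back e, back e']
    simp only [mul_assoc, Units.inv_mul_cancel_left, ← mul_add]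
    simp only [← mul_assoc, ← add_mul, N0, Lo, dd]; mxs
  refine ⟨P * dd m 0 0 m n 0 0 n * (↑P⁻¹ : M4 k), ?_, ?_, ?_, fun l hl => ⟨a, ?_⟩⟩
  · rw [back e]
    simp only [mul_assoc, Units.inv_mul_cancel_left]
    simp only [← mul_assoc, Units.mul_left_inj]
    simp only [mul_assoc, Units.mul_right_inj, N0, dd]; mxs
  · rw [hM]
    simp only [mul_assoc, Units.inv_mul_cancel_left]
    have : dd m 0 0 m n 0 0 n * dd m 0 0 m n 0 0 n * dd a 0 0 a b 0 0 b = 1 := by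
      simp only [dd]; mxs; gr
    rw [← mul_assoc (dd m 0 0 m n 0 0 n), ← mul_assoc (_ * dd m 0 0 m n 0 0 n), this, one_mul,
      Units.mul_inv]
  · convert h1 using 1
    rw [back e]
    simp only [mul_assoc, Units.inv_mul_cancel_left]
    simp only [← mul_assoc, Units.mul_left_inj]
    simp only [mul_assoc, Units.mul_right_inj, N0, Up, dd]; mxs
  · rw [hM] at hl ⊢
    have : dd a 0 0 a b 0 0 b * dd a 0 0 a b 0 0 b = l • 1 := by
      have := congrArg (fun X => (↑P⁻¹ : M4 k) * X * P) hl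
      simpa [mul_assoc] using this
    rw [dd] at this
    mxs at this
    rw [show dd a 0 0 a b 0 0 b = a • (1 : M4 k) by rw [dd]; mxs; gr]
    simp

def Tm (p q r s : k) : M4 k := mx 0 0 p q 0 0 r s 0 0 0 0 0 0 0 0

theorem genN (hG : Good α) (h : NN α F N) {H : Subgroup Γ} (hH : ∀ x, NN α F (1 + α x) → x ∈ H)
    (g : Γ) : g ∈ H := by
  obtain ⟨t, ht⟩ := h.one
  refine gen hG.sn (fun x => NN α F (1 + α x)) (fun g x hx => hx.conj g ?_) (z := t)
    (by rwa [ht, one_add_add]) (fun e => h.2.1 ?_) hH g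
  · simp [mul_add, add_mul, mul_assoc, inv_mul']
  · rw [e, map_one] at ht
    simpa using ht

theorem split (hG : Good α) (hc : c ∈ F) (c0 : c ≠ 0) (c1 : c ≠ 1) {d d' : k} (h1 : NN α F (Up 1 1))
    (h2 : NN α F (Up d d')) (h3 : NN α F (Lo 1 1)) (hd : d ≠ 0) (hd' : d' ≠ 0) : d = d' := by
  by_contra hne
  obtain ⟨β, rfl⟩ := IsAlgClosed.exists_eq_mul_self d
  obtain ⟨γ, rfl⟩ := IsAlgClosed.exists_eq_mul_self d'
  have h4 : NN α F (Up (1 + β * β) (1 + γ * γ)) := by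
    convert h1.add h2 (by simp only [Up, dd]; mxs) (by simp only [Up, dd]; mxs)
      (by simp only [Up, dd]; mxs; gr) using 1
    simp only [Up, dd]; mxs
  have h5 : (1 + β) * (1 + γ) ≠ 0 := fun e => by
    obtain ⟨t, ht⟩ := h4.one
    have := hG.tv2 (g := t) (p := 1 + β * β) (q := 0) (r := 0) (s := 1 + γ * γ)
      (by rw [ht, Up, dd, tm]; mxs) (by gr)
    rw [this, map_one] at ht
    exact h4.2.1 (by simpa using ht)
  obtain ⟨y0, e0⟩ := swapUL (m := 1) (m' := 1) h1 h3 (by simp) (by simp)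
  obtain ⟨β1, i1⟩ := exi (left_ne_zero_of_mul hd)
  obtain ⟨γ1, i2⟩ := exi (left_ne_zero_of_mul hd')
  obtain ⟨β2, i3⟩ := exi (left_ne_zero_of_mul h5)
  obtain ⟨γ2, i4⟩ := exi (right_ne_zero_of_mul h5)
  obtain ⟨y1, e1⟩ := swapUL (m := β1) (m' := γ1) h2 h3 (by gr) (by gr)
  obtain ⟨y2, e2⟩ := swapUL (m := β2) (m' := γ2) h4 h3 (by gr) (by gr)
  have ad : ∀ {p q r s p' q' r' s' : k}, (Tm p q r s = 0 ∨ NN α F (Tm p q r s)) →
      NN α F (Tm p' q' r' s') → (Tm (p + p') (q + q') (r + r') (s + s') = 0 ∨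
        NN α F (Tm (p + p') (q + q') (r + r') (s + s'))) := fun {p q r s p' q' r' s'} a b => by
    have e : Tm (p + p') (q + q') (r + r') (s + s') = Tm p q r s + Tm p' q' r' s' := by
      simp only [Tm]; mxs
    rw [e]
    rcases a with a | a
    · rw [a, zero_add]; exact Or.inr b
    · exact (eq_or_ne _ _).imp_right (a.add b (by simp only [Tm]; mxs) (by simp only [Tm]; mxs))
  have A : ∀ p q r s, NN α F (Tm p q r s) → q = 0 ∧ r = 0 := fun p q r s h => by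
    have a1 : NN α F (Tm (β * β * p) (β * γ * q) (β * γ * r) (γ * γ * s)) := h.conj (y1 * y0) (by
      rw [map_mul, e0, e1]; simp only [Tm, dd]; mxs; gr)
    have a2 : NN α F (Tm ((1 + β) * (1 + β) * p) ((1 + β) * (1 + γ) * q) ((1 + β) * (1 + γ) * r)
      ((1 + γ) * (1 + γ) * s)) := h.conj (y2 * y0) (by
      rw [map_mul, e0, e2]; simp only [Tm, dd]; mxs; gr)
    rcases ad (ad (Or.inr h) a1) a2 with a | a
    · rw [Tm] at a; mxs at a; gr
    · rcases pr hG hc c0 c1 a h3 with e | ⟨-, -, -, -, e⟩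
      · simp only [Tm, Lo, dd] at e; mxs at e; gr
      · obtain ⟨u, e⟩ := e ((β + γ) ^ 2 * q * r) (by simp only [Tm, Lo, dd]; mxs; gr)
        simp only [Tm, Lo, dd] at e; mxs at e; gr
  have B : ∀ N, NN α F N → N 2 1 = 0 ∧ N 3 0 = 0 := fun N h => by
    obtain ⟨a0, a1, a2, a3, b0, b1, b2, b3, x, y, c2, c3, z, w, d2, d3, rfl⟩ := ex N
    rcases pr hG hc c0 c1 h1 h with e | ⟨m, e, e', h', -⟩
    · simp only [Up, dd] at e; mxs at e ⊢; tauto
    · obtain ⟨m0, m1, m2, m3, n0, n1, n2, n3, p0, p1, p2, p3, q0, q1, q2, q3, rfl⟩ := ex m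
      simp only [Up, dd] at e e' h'
      mxs at e
      obtain ⟨rfl, rfl, rfl, rfl, rfl, rfl, rfl, rfl, -⟩ := e
      obtain ⟨rfl, rfl⟩ := A m0 m1 n0 n1 (by convert h' using 1; rw [Tm]; mxs)
      mxs at e' ⊢
      gr
  have C : ∀ N, NN α F N → N 0 3 = 0 ∧ N 1 2 = 0 := fun N h => by
    obtain ⟨a0, a1, a2, a3, b0, b1, b2, b3, x, y, c2, c3, z, w, d2, d3, rfl⟩ := ex N
    exact B (mx c2 c3 x y d2 d3 z w a2 a3 a0 a1 b2 b3 b0 b1) (h.conj y0 (by rw [e0, dd]; mxs))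
  obtain ⟨t1, f1⟩ := h1.one
  obtain ⟨t2, f2⟩ := h2.one
  refine hG.irrI (fun i => i = 0 ∨ i = 2) (i0 := 1) (j0 := 0) (by simp) (by simp) fun g i j hi hj => ?_
  obtain ⟨a, b, c, d, a', b', c', d', e⟩ := genN hG h1 (H := DD α) (fun ξ h => by
    obtain ⟨a0, a1, a2, a3, b0, b1, b2, b3, x, y, c2, c3, z, w, d2, d3, e⟩ := ex (1 + α ξ)
    have i1 := C _ (h.conj t1 (N' := α t1 * (1 + α ξ) * α t1) (by
      rw [mul_assoc _ (α t1), f1, sq_of_N h1.1, mul_one]))
    have i2 := C _ (h.conj t2 (N' := α t2 * (1 + α ξ) * α t2) (by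
      rw [mul_assoc _ (α t2), f2, sq_of_N h2.1, mul_one]))
    have i3 := C _ h
    have i4 := B _ h
    rw [e] at i1 i2 i3 i4
    simp only [f1, f2, Up, dd] at i1 i2
    mxs at i1 i2 i3 i4
    refine ⟨1 + a0, a2, x, 1 + c2, 1 + b1, b3, w, 1 + d3, ?_⟩
    rw [← one_add_add (α ξ), e, dd]; mxs
    gr) g
  rw [e, dd]
  fin_cases i <;> fin_cases j <;> simp at hi hj <;> rfl

theorem scal (hG : Good α) (hc : c ∈ F) (c0 : c ≠ 0) (c1 : c ≠ 1) (h : NN α F N) : SD α := by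
  have Hs : ∀ N N', NN α F N → NN α F N' → ∃ u : k, N * N' + N' * N = u • 1 := fun N N' h h' => by
    rcases pair hG hc c0 c1 h h' with e | ⟨P, a, b, ha, hb, e, e'⟩
    · exact ⟨0, by rw [e, madd, zero_smul]⟩
    obtain ⟨m, hm⟩ := exists_m ha
    obtain ⟨n, hn⟩ := exists_m hb
    have h0 := h.cj P e
    have h1 := sqrtU hc c0 c1 h0 (h'.cj P e') hm hn
    obtain ⟨w, hw⟩ := swapUL h0 (h'.cj P e') hm hn
    have h2 : NN (cj P α) F (Lo (m * a) (n * b)) := h1.conj w (by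
      rw [hw]; simp only [Up, Lo, dd]; mxs)
    let Q : (M4 k)ˣ := un (dd 1 0 0 (m * a) 1 0 0 (n * b)) (dd 1 0 0 m 1 0 0 n) (by
      simp only [dd]; mxs; gr)
    have hQ : (Q : M4 k) = dd 1 0 0 (m * a) 1 0 0 (n * b) := rfl
    have := split ((hG.cj P).cj Q) hc c0 c1 (d := m * a) (d' := n * b)
      (h1.cj Q (by rw [hQ]; simp only [Up, dd]; mxs; gr))
      (h0.cj Q (by rw [hQ]; simp only [N0, Up, dd]; mxs))
      (h2.cj Q (by rw [hQ]; simp only [Lo, dd]; mxs)) (by gr) (by gr)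
    obtain rfl : a = b := by gr
    refine ⟨a, ?_⟩
    rw [back e, back e']
    simp only [mul_assoc, Units.inv_mul_cancel_left, ← mul_add]
    rw [← mul_assoc N0, ← mul_assoc (Lo a a), ← add_mul,
      show N0 * Lo a a + Lo a a * N0 = a • (1 : M4 k) by simp only [N0, Lo, dd]; mxs]
    simp
  obtain ⟨N', h', hn⟩ : ∃ N', NN α F N' ∧ N * N' ≠ N' * N := by
    by_contra! H
    obtain ⟨t, ht⟩ := h.one
    have := hG.sn.center_eq (z := t) fun g => mem_Cen.1 (genN hG h (H := Cen t) (fun x hx =>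
      mem_Cen.2 (hG.eq ?_)) g) |>.symm
    · rw [this, map_one] at ht
      exact h.2.1 (by simpa using ht)
    · have := H _ hx
      rw [mul_add, add_mul, mul_one, one_mul, add_right_inj] at this
      rw [map_mul, map_mul, ht, mul_add, add_mul, this, mul_one, one_mul]
  obtain ⟨P, a, b, ha, hb, e, e'⟩ := (pair hG hc c0 c1 h h').resolve_left hn
  refine SD.of_cj (P := P) ⟨mx 0 0 0 1 0 0 1 0 0 1 0 0 1 0 0 0, by mxs; simp, ?_⟩
  have Hs' : ∀ N N', NN (cj P α) F N → NN (cj P α) F N' → ∃ u : k, N * N' + N' * N = u • 1 :=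
    fun N N' h h' => by
      obtain ⟨u, hu⟩ := Hs _ _ h.of_cj h'.of_cj
      have := congrArg (fun X => (↑P⁻¹ : M4 k) * X * P) hu
      exact ⟨u, by simpa [mul_assoc, mul_add, add_mul] using this⟩
  refine genN (hG.cj P) (h.cj P e) (H := sg (fun g => (cj P α g)ᵀ * _ * cj P α g = _) (by simp)
    fun a b ha hb => by
      rw [map_mul, transpose_mul, mul_assoc, mul_assoc, ← mul_assoc _ (cj P α a),
        ← mul_assoc (cj P α a)ᵀ, ← mul_assoc (cj P α a)ᵀ, ha, ← mul_assoc, hb]) fun x hx => ?_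
  obtain ⟨u, hu⟩ := Hs' _ _ (h.cj P e) (h'.cj P e')
  obtain ⟨u1, h1⟩ := Hs' _ _ (h.cj P e) hx
  obtain ⟨u2, h2⟩ := Hs' _ _ (h'.cj P e') hx
  have h3 := hx.1
  change (cj P α x)ᵀ * _ * cj P α x = _
  rw [← one_add_add (cj P α x)]
  obtain ⟨a0, a1, a2, a3, b0, b1, b2, b3, x, y, c2, c3, z, w, d2, d3, e⟩ := ex (1 + cj P α x)
  rw [e] at h1 h2 h3 ⊢
  simp only [N0, Lo, dd] at hu h1 h2
  mxs at hu h1 h2 h3 ⊢
  clear Hs Hs'
  obtain ⟨rfl, rfl, -⟩ := hu
  have : a3 = 0 := by gr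
  have : b2 = 0 := by gr
  have : a2 = b3 := by gr
  have : a0 = b1 := by gr
  gr

/-- no scalable involution -/
def NSc (α : Γ →* M4 k) : Prop :=
  ∀ (t g : Γ) (N : M4 k) (c : k), α t = 1 + N → t * t = 1 → t ≠ 1 → α g * N = c • N * α g → c = 1

theorem nsc_of (hG : Good α) (h : ¬ SD α) : NSc α := fun t g N c ht t2 t1 e => by
  by_contra c1
  have hN : N * N = 0 := by
    rw [← one_add_add N, ← ht]; exact N_sq (by rw [← map_mul, t2, map_one])
  have N0 : N ≠ 0 := fun e => t1 (hG.eq1 (by rw [ht, e, add_zero]))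
  have c0 : c ≠ 0 := fun e' => N0 (by
    rw [e', zero_smul, zero_mul] at e
    rw [← one_mul N, ← inv_mul' α g, mul_assoc, e, mul_zero])
  let L : Set k := {s | ∃ g, α g = 1 + s • N}
  have fin : L.Finite := by
    refine Set.Finite.of_finite_image (f := fun s => 1 + s • N) ((Set.finite_range α).subset ?_)
      fun a _ b _ e => smul_left_injective k N0 (add_left_cancel e)
    rintro _ ⟨s, hs, rfl⟩; exact hs
  have add : ∀ a ∈ L, ∀ b ∈ L, a + b ∈ L := fun a ⟨x, hx⟩ b ⟨y, hy⟩ =>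
    ⟨x * y, by simp [hx, hy, mul_add, add_mul, hN, add_smul, add_assoc, add_comm (a • N)]⟩
  let F : Subfield k :=
    { carrier := {s | ∀ t ∈ L, s * t ∈ L}
      mul_mem' := fun ha hb t ht => by rw [mul_assoc]; exact ha _ (hb t ht)
      one_mem' := fun t ht => by rwa [one_mul]
      add_mem' := fun ha hb t ht => by rw [add_mul]; exact add _ (ha t ht) _ (hb t ht)
      zero_mem' := fun t ht => ⟨1, by simp⟩
      neg_mem' := fun {x} hx => by rwa [CharTwo.neg_eq]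
      inv_mem' := fun x hx t ht => by
        by_cases x0 : x = 0
        · exact ⟨1, by simp [x0]⟩
        obtain ⟨u, hu, rfl⟩ := ((fin.injOn_iff_bijOn_of_mapsTo (f := (x * ·)) hx).1
          (mul_right_injective₀ x0).injOn).surjOn ht
        simpa [x0] using hu }
  refine h (scal hG (F := F) (c := c) (N := N) (fun s ⟨x, hx⟩ => ⟨g * x * g⁻¹, ?_⟩) c0 c1
    ⟨hN, N0, fun s hs => mul_one s ▸ hs 1 ⟨t, by simpa using ht⟩⟩)
  rw [map_mul, map_mul, hx, mul_add, mul_one, mul_smul_comm, e, add_mul, mul_inv']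
  simp [mul_assoc, mul_inv', smul_smul, mul_comm]

theorem NSc.cj (h : NSc α) (P : (M4 k)ˣ) : NSc (cj P α) := fun t g N c ht t2 t1 e =>
  h t g (P * N * (↑P⁻¹ : M4 k)) c (by rw [cj_back P t, ht]; simp [mul_add, add_mul]) t2 t1 (by
    rw [cj_back P g]
    simp only [mul_assoc, Units.inv_mul_cancel_left, smul_mul_assoc]
    rw [← mul_assoc (C2.cj P α g), e]; simp [mul_assoc])

end Cfsg.Agent.H9.C2
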